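import Cfsg.Agent.H98.FormPreserve.Basic
import Cfsg.Agent.H67.OrthMoved
import Cfsg.Agent.H4.Count
import Cfsg.Agent.H97.Elements

/-!
# Elements of `SL_n` preserving no transform of a quadratic form up to scalars
-/

set_option autoImplicit false

namespace Cfsg.Agent.H98.FP

open QuadraticMap hiding sq
open Module
open scoped Matrix Classical

variable {F : Type*} [Field F] {n : ℕ}

/-- `x` is a counterexample for the prime `r`. -/
def IsWitness (Q : (Fin n → F) → F) (r : ℕ) (x : GL (Fin n) F) : Prop :=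
  x ∈ Cfsg.Geo.specialLinear (Fin n) F ∧ (∃ z : F, op x ^ r = z • 1) ∧
    (∀ z : F, op x ≠ z • 1) ∧ ¬ Good Q x

theorem mem_special_iff {x : GL (Fin n) F} :
    x ∈ Cfsg.Geo.specialLinear (Fin n) F ↔ LinearMap.det (op x) = 1 := by
  rw [Cfsg.Geo.specialLinear, MonoidHom.mem_ker, Units.ext_iff, Units.val_one,
    Matrix.GeneralLinearGroup.val_det_apply, op, LinearMap.det_toLin']

/-- A transvection preserves no non-degenerate quadratic form up to scalars. -/
theorem transvection_not_similar (h2 : (2 : F) ≠ 0) {V : Type*} [AddCommGroup V] [Module F V]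
    [FiniteDimensional F V] (P : QuadraticForm F V) (hP : (polarBilin P).Nondegenerate)
    (hn : 3 ≤ finrank F V) (φ : V →ₗ[F] F) (a : V) (hφa : φ a = 0) (hφ : φ ≠ 0) (ha : a ≠ 0)
    {c : F} (hc : ∀ v, P (v + φ v • a) = c * P v) : False := by
  have hker : ∀ v, φ v = 0 → (1 - c) * P v = 0 := fun v hv => by
    have := hc v
    rw [hv, zero_smul, add_zero] at this
    linear_combination this
  obtain ⟨v₁, hv₁⟩ : ∃ v, φ v ≠ 0 := by
    by_contra h
    push Not at h
    exact hφ (LinearMap.ext h)
  have hc1 : c = 1 := by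
    by_contra hc1
    have hz : ∀ v ∈ LinearMap.ker φ, P v = 0 := fun v hv =>
      (mul_eq_zero.1 (hker v (LinearMap.mem_ker.1 hv))).resolve_left (sub_ne_zero.2 (Ne.symm hc1))
    have h1 := H4.two_mul_finrank_le hP (W := LinearMap.ker φ) hz
    have h3 := LinearMap.finrank_range_add_finrank_ker φ
    rw [LinearMap.range_eq_top.2 (LinearMap.surjective hφ), finrank_top, Module.finrank_self] at h3
    omega
  subst hc1
  have hB : ∀ v, φ v ≠ 0 → polar P v a + φ v * P a = 0 := fun v hv => by
    have h := hc v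
    rw [QuadraticMap.map_add (⇑P), H4.qf_smul, polar_smul_right, smul_eq_mul] at h
    refine (mul_eq_zero.1 (?_ : φ v * (polar P v a + φ v * P a) = 0)).resolve_left hv
    linear_combination h
  have hB' : ∀ v, polar P v a = -φ v * P a := fun v => by
    by_cases hv : φ v = 0
    · have h1 := hB (v + v₁) (by rw [map_add, hv, zero_add]; exact hv₁)
      rw [polar_add_left, map_add, hv, zero_add] at h1
      rw [hv, neg_zero, zero_mul]
      linear_combination h1 - hB v₁ hv₁
    · linear_combination hB v hv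
  have hPa : P a = 0 := by
    have := hB' a
    rw [H5.polar_self', hφa, neg_zero, zero_mul] at this
    exact (mul_eq_zero.1 this).resolve_left h2
  refine ha (hP.1 a fun v => ?_)
  rw [polarBilin_apply_apply, polar_comm, hB', hPa, mul_zero]

variable [Fintype F]

/-- The witness for `r` equal to the characteristic. -/
theorem witness_char (h2 : (2 : F) ≠ 0) (hn : 3 ≤ n) (Q : QuadraticForm F (Fin n → F))
    (hQ : (polarBilin Q).Nondegenerate) {r : ℕ} [Fact r.Prime] (hr : (r : F) = 0) :
    ∃ x, IsWitness (⇑Q) r x := by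
  classical
  let i : Fin n := ⟨0, by omega⟩
  let j : Fin n := ⟨1, by omega⟩
  have hij : i ≠ j := by simp [i, j]
  have hdet : (Matrix.transvection i j (1 : F)).det ≠ 0 := by
    rw [Matrix.det_transvection_of_ne _ _ hij]; exact one_ne_zero
  let x : GL (Fin n) F := Matrix.GeneralLinearGroup.mkOfDetNeZero _ hdet
  have hx : ∀ v, op x v = v + v j • Pi.single i 1 := fun v => by
    show Matrix.toLin' (Matrix.transvection i j (1 : F)) v = _
    rw [Matrix.toLin'_apply, Matrix.transvection, Matrix.add_mulVec, Matrix.one_mulVec,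
      Matrix.single_mulVec_eq]
    funext k
    by_cases hk : k = i <;> simp [hk, Pi.single_apply]
  refine ⟨x, mem_special_iff.2 ?_, ⟨1, LinearMap.ext fun v => ?_⟩, fun z hz => ?_, fun hg => ?_⟩
  · rw [op, LinearMap.det_toLin']; exact Matrix.det_transvection_of_ne _ _ hij (1 : F)
  · have hpow : ∀ k : ℕ, (op x ^ k) v = v + (k : F) • (v j • Pi.single i 1) := by
      intro k
      induction k with
      | zero => simp
      | succ k ih =>
        rw [pow_succ', Module.End.mul_apply, ih, hx, Nat.cast_succ, add_smul, one_smul]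
        simp [Pi.single_apply, hij.symm, add_assoc]
    rw [hpow, hr, zero_smul, add_zero, one_smul, Module.End.one_apply]
  · have h1 := congrFun (LinearMap.congr_fun hz (Pi.single j 1)) i
    rw [hx] at h1
    simp [Pi.single_apply, hij, hij.symm] at h1
  · obtain ⟨P, e, c, hP, -, hPx, -⟩ := form_of_good Q hQ x hg
    refine transvection_not_similar h2 P hP (by rw [Module.finrank_fin_fun]; exact hn)
      (LinearMap.proj j) (Pi.single i 1) (by simp [Pi.single_apply, hij.symm])
      (fun h => one_ne_zero (α := F) (by simpa using LinearMap.congr_fun h (Pi.single j 1)))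
      (fun h => one_ne_zero (α := F) (by simpa using congrFun h i)) (c := c) fun v => ?_
    rw [← hPx, hx]
    rfl

omit [Fintype F] in
/-- For a diagonal similarity, paired eigenvalues have equal multiplicities. -/
theorem diag_mult_le {ι : Type*} [Fintype ι] [DecidableEq ι] {V : Type*} [AddCommGroup V] [Module F V]
    (P : QuadraticForm F V) (hP : (polarBilin P).Nondegenerate) (b : Basis ι F V) (T : End F V)
    (μ : ι → F) (hT : ∀ i, T (b i) = μ i • b i) {c : F} (hPT : ∀ v, P (T v) = c * P v) {a : F}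
    (ha : a ≠ 0) :
    (Finset.univ.filter fun i => μ i = a).card ≤ (Finset.univ.filter fun j => μ j = c / a).card := by
  have hG : ∀ i j, μ i * μ j * polar P (b i) (b j) = c * polar P (b i) (b j) := fun i j => by
    have h : polar P (T (b i)) (T (b j)) = c * polar P (b i) (b j) := by
      simp only [polar, ← map_add, hPT]; ring
    rw [hT, hT, polar_smul_left, polar_smul_right, smul_eq_mul, smul_eq_mul] at h
    linear_combination h
  set A := Finset.univ.filter fun i => μ i = a
  set B := Finset.univ.filter fun j => μ j = c / a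
  have hlin : LinearIndependent F fun i : A => fun j : B => polar P (b (i : ι)) (b (j : ι)) := by
    rw [Fintype.linearIndependent_iff]
    intro g hg i
    have hzero : ∑ i : A, g i • b (i : ι) = 0 := by
      refine hP.1 _ fun y => LinearMap.congr_fun (g := 0) ?_ y
      refine b.ext fun j => ?_
      rw [map_sum, LinearMap.sum_apply, LinearMap.zero_apply]
      by_cases hj : μ j = c / a
      · have h1 := congrFun hg ⟨j, Finset.mem_filter.2 ⟨Finset.mem_univ _, hj⟩⟩
        simpa using h1
      · refine Finset.sum_eq_zero fun i _ => ?_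
        have hi : μ (i : ι) = a := (Finset.mem_filter.1 i.2).2
        have h1 := hG (i : ι) j
        rw [hi] at h1
        have h0 : polar P (b (i : ι)) (b j) = 0 := by
          by_contra h0
          exact hj (eq_div_of_mul_eq ha (by rw [mul_comm]; exact mul_right_cancel₀ h0 h1))
        simp [h0]
    exact (Fintype.linearIndependent_iff.1 (b.linearIndependent.comp (fun i : A => (i : ι))
      Subtype.val_injective)) g hzero i
  simpa using hlin.fintype_card_le_finrank

/-- Diagonal witnesses: two eigenvalues with non-symmetric multiplicities. -/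
theorem witness_diag (Q : QuadraticForm F (Fin n → F)) (hQ : (polarBilin Q).Nondegenerate) {r : ℕ}
    (hrodd : Odd r) {ζ w : F} (hζ : IsPrimitiveRoot ζ r) (hw : w ≠ 0) (e : Fin n → ℕ)
    (he : ∀ i, e i < r) (hdet : w ^ n * ζ ^ (∑ i, e i) = 1) (i₀ i₁ : Fin n) (h01 : e i₀ ≠ e i₁)
    (huniq : ∀ i, (Finset.univ.filter fun j => e j = e i).card =
        (Finset.univ.filter fun j => e j = e i₀).card → e i = e i₀)
    (huniq' : ∀ i, (Finset.univ.filter fun j => e j = e i).card =
        (Finset.univ.filter fun j => e j = e i₁).card → e i = e i₁) :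
    ∃ x, IsWitness (⇑Q) r x := by
  classical
  have hζ0 : ζ ≠ 0 := fun h => by
    have := hζ.pow_eq_one
    rw [h, zero_pow (by obtain ⟨k, hk⟩ := hrodd; omega)] at this
    exact zero_ne_one this
  let μ : Fin n → F := fun i => w * ζ ^ e i
  have hμ0 : ∀ i, μ i ≠ 0 := fun i => mul_ne_zero hw (pow_ne_zero _ hζ0)
  have hμinj : ∀ {i j}, μ i = μ j ↔ e i = e j := fun {i j} =>
    ⟨fun h => hζ.pow_inj (he i) (he j) (mul_left_cancel₀ hw h), fun h => by simp only [μ, h]⟩
  have hdet' : (Matrix.diagonal μ).det = 1 := by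
    rw [Matrix.det_diagonal, Finset.prod_mul_distrib, Finset.prod_const, Finset.card_univ,
      Fintype.card_fin, Finset.prod_pow_eq_pow_sum, hdet]
  let x : GL (Fin n) F := Matrix.GeneralLinearGroup.mkOfDetNeZero (Matrix.diagonal μ)
    (by rw [hdet']; exact one_ne_zero)
  have hT : ∀ i, op x (Pi.basisFun F (Fin n) i) = μ i • Pi.basisFun F (Fin n) i := fun i => by
    show Matrix.toLin' (Matrix.diagonal μ) _ = _
    rw [Pi.basisFun_apply, Matrix.toLin'_apply, Matrix.mulVec_single_one]
    funext k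
    by_cases hk : k = i
    · subst hk; simp
    · simp [hk, Matrix.diagonal_apply_ne _ hk]
  have hTk : ∀ (k : ℕ) i, (op x ^ k) (Pi.basisFun F (Fin n) i) = μ i ^ k • Pi.basisFun F (Fin n) i := by
    intro k i
    induction k with
    | zero => simp
    | succ k ih => rw [pow_succ', Module.End.mul_apply, ih, map_smul, hT, smul_smul, ← pow_succ]
  refine ⟨x, mem_special_iff.2 (by rw [op, LinearMap.det_toLin']; exact hdet'),
    ⟨w ^ r, (Pi.basisFun F (Fin n)).ext fun i => ?_⟩, fun z hz => ?_, fun hg => ?_⟩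
  · rw [hTk, LinearMap.smul_apply, Module.End.one_apply, mul_pow, ← pow_mul, mul_comm (e i), pow_mul,
      hζ.pow_eq_one, one_pow, mul_one]
  · have h : ∀ i, μ i = z := fun i => by
      have h1 := LinearMap.congr_fun hz (Pi.basisFun F (Fin n) i)
      rw [hT] at h1
      simpa using congrFun h1 i
    exact h01 (hμinj.1 ((h i₀).trans (h i₁).symm))
  obtain ⟨P, -, c, hP, hc, hPx, -⟩ := form_of_good Q hQ x hg
  have hle := fun a ha => diag_mult_le P hP _ _ μ hT hPx (a := a) ha
  have hfix : ∀ i, (∀ k, (Finset.univ.filter fun j => e j = e k).card =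
      (Finset.univ.filter fun j => e j = e i).card → e k = e i) → μ i * μ i = c := by
    intro i hu
    have hne : c / μ i ≠ 0 := div_ne_zero hc (hμ0 i)
    have h1 := hle _ (hμ0 i)
    have h2 := hle _ hne
    rw [div_div_cancel₀ hc] at h2
    have heq := le_antisymm h1 h2
    obtain ⟨k, hk⟩ : (Finset.univ.filter fun j => μ j = c / μ i).Nonempty := by
      refine Finset.card_pos.1 (lt_of_lt_of_le (Finset.card_pos.2 ⟨i, ?_⟩) h1)
      simp
    rw [Finset.mem_filter] at hk
    rw [← hk.2] at heq
    simp only [hμinj] at heq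
    have hki := hμinj.2 (hu k heq.symm)
    rw [hk.2, div_eq_iff (hμ0 i)] at hki
    exact hki.symm
  have h1 := (hfix i₀ huniq).trans (hfix i₁ huniq').symm
  have h3 : ζ ^ (2 * e i₀) = ζ ^ (2 * e i₁) := by
    refine mul_left_cancel₀ (mul_ne_zero hw hw) ?_
    simp only [μ] at h1
    rw [two_mul, two_mul, pow_add, pow_add]
    linear_combination h1
  obtain ⟨k, hk⟩ := hrodd
  have hroot : ∀ m : ℕ, (ζ ^ (2 * m)) ^ (k + 1) = ζ ^ m := fun m => by
    rw [← pow_mul, show 2 * m * (k + 1) = r * m + m by rw [hk]; ring, pow_add, pow_mul, hζ.pow_eq_one,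
      one_pow, one_mul]
  exact h01 (hζ.pow_inj (he i₀) (he i₁) (by rw [← hroot, h3, hroot]))

variable {r : ℕ} [Fact r.Prime]

omit [Fintype F] in
/-- Multipliers of elements of order `r`. -/
theorem mult_pow_eq_one {V : Type*} [AddCommGroup V] [Module F V] {P : QuadraticForm F V}
    (hne : ∃ v, P v ≠ 0) {T : End F V} {c : F} (hPT : ∀ v, P (T v) = c * P v) (hT : T ^ r = 1) :
    c ^ r = 1 := by
  obtain ⟨v, hv⟩ := hne
  have h : ∀ k : ℕ, P ((T ^ k) v) = c ^ k * P v := by
    intro k
    induction k with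
    | zero => simp
    | succ k ih => rw [pow_succ', Module.End.mul_apply, hPT, ih, pow_succ']; ring
  have h1 := h r
  rw [hT, Module.End.one_apply] at h1
  exact mul_right_cancel₀ hv (by rw [one_mul]; exact h1.symm)

/-- A fixed-point-free isometry of odd order lives in even dimension. -/
theorem even_of_fpf (hr2 : r ≠ 2) (hr : (r : F) ≠ 0) {p : ℕ} [Fact p.Prime] [CharP F p]
    (hd2 : 2 ≤ orderOf (Nat.card F : ZMod r))
    {V : Type*} [AddCommGroup V] [Module F V] [FiniteDimensional F V] (P : QuadraticForm F V)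
    (hP : (polarBilin P).Nondegenerate) (T : End F V) (hT : T ^ r = 1) (hPT : ∀ v, P (T v) = P v)
    (hfix : ∀ v, T v = v → v = 0) : Even (finrank F V) := by
  by_contra hodd
  rw [Nat.not_even_iff_odd] at hodd
  obtain ⟨m, hm⟩ := hodd
  obtain ⟨h2, c, hc, g, hg⟩ := H4.isom_std_odd hP hm
  have hrp := (Fact.out : r.Prime)
  let L : V ≃ₗ[F] V := LinearEquiv.ofBijective T ((Module.End.isUnit_iff T).1
    (IsUnit.of_pow_eq_one hT hrp.ne_zero))
  have hLk : ∀ (k : ℕ) v, (L ^ k) v = (T ^ k) v := by
    intro k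
    induction k with
    | zero => intro v; rfl
    | succ k ih => intro v; rw [pow_succ', pow_succ', LinearEquiv.mul_apply, ih]; rfl
  have hZ := H67.zeros_modEq_one hrp P L (LinearEquiv.ext fun v => by rw [hLk, hT]; rfl) hPT hfix
  rw [Nat.card_congr (g.toEquiv.subtypeEquiv (q := fun w => Cfsg.quadFormOdd m F w = 0) fun v => by
    rw [← hg, ← H4.coe_qOdd]; simp [hc]), H4.card_qOdd_zeros, ← Nat.cast_one (R := ZMod r),
    ZMod.natCast_eq_natCast_iff] at hZ
  rw [← Nat.card_eq_fintype_card] at hZ
  have h1 := H97.orderOf_dvd_of_modEq hZ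
  have h3 := H97.orderOf_dvd_of_modEq (H97.card_pow_modEq_of_fpf T hT hfix)
  rw [hm] at h3
  have h4 := Nat.dvd_sub h3 h1
  rw [Nat.add_sub_cancel_left, Nat.dvd_one] at h4
  omega

/-- The witness with one moved piece of odd dimension. -/
theorem witness_odd_order (hr2 : r ≠ 2) (hr : (r : F) ≠ 0) {p : ℕ} [Fact p.Prime] [CharP F p]
    (hd2 : 2 ≤ orderOf (Nat.card F : ZMod r)) (hdo : Odd (orderOf (Nat.card F : ZMod r)))
    (hdn : orderOf (Nat.card F : ZMod r) ≤ n) (hn : 0 < n) (Q : QuadraticForm F (Fin n → F))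
    (hQ : (polarBilin Q).Nondegenerate) : ∃ x, IsWitness (⇑Q) r x := by
  set d := orderOf (Nat.card F : ZMod r) with hd
  obtain ⟨f, hf, hfd⟩ := H97.exists_element (F := F) (r := r) hr (Fin n → F) (n - d) 1
    (by rw [Module.finrank_fin_fun]; omega)
  have hdet : LinearMap.det f = 1 := H97.eq_one_of_pow_eq_one hd2 (by rw [← map_pow, hf, map_one])
  obtain ⟨x, hx⟩ := exists_gl_of_op f (by rw [hdet]; exact one_ne_zero)
  refine ⟨x, mem_special_iff.2 (by rw [hx, hdet]), ⟨1, by rw [hx, hf, one_smul]⟩, fun z hz => ?_, fun hg => ?_⟩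
  · rw [hx] at hz
    rw [hz, smul_pow, one_pow] at hf
    have hz1 : z = 1 := H97.eq_one_of_pow_eq_one hd2 (by
      have := congrFun (LinearMap.congr_fun hf fun _ => 1) ⟨0, hn⟩
      simpa using this)
    rw [hz, hz1, one_smul] at hfd
    rw [show H97.fixedSpace (1 : End F (Fin n → F)) = ⊤ from Submodule.eq_top_iff'.2 fun v =>
      H97.mem_fixedSpace.2 rfl, finrank_top, Module.finrank_fin_fun] at hfd
    omega
  obtain ⟨P, -, c, hP, -, hPx, -⟩ := form_of_good Q hQ x hg
  rw [hx] at hPx
  have hne : ∃ v, P v ≠ 0 := by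
    by_contra h
    push Not at h
    have hv : (fun _ => 1 : Fin n → F) = 0 := hP.1 _ fun y => by
      rw [polarBilin_apply_apply]; simp [polar, h]
    exact one_ne_zero (α := F) (congrFun hv ⟨0, hn⟩)
  have hc1 : c = 1 := H97.eq_one_of_pow_eq_one hd2 (mult_pow_eq_one hne hPx hf)
  subst hc1
  simp only [one_mul] at hPx
  set M := H97.movedSpace f
  have hMinv : ∀ v ∈ M, f v ∈ M := fun v hv => H97.movedSpace_inv f ⟨v, hv, rfl⟩
  have horth : ∀ a ∈ H97.fixedSpace f, ∀ b ∈ M, polar P a b = 0 := by
    rintro a ha _ ⟨y, rfl⟩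
    have h1 : polar P (f a) (f y) = polar P a y := by simp only [polar, ← map_add, hPx]
    rw [H97.mem_fixedSpace.1 ha] at h1
    rw [LinearMap.sub_apply, Module.End.one_apply, sub_eq_add_neg, polar_add_right, polar_neg_right,
      h1, add_neg_cancel]
  have hnd : M ⊓ H5.perp P M = ⊥ := by
    refine (Submodule.eq_bot_iff _).2 ?_
    rintro v ⟨hv, hv'⟩
    refine hP.1 v fun y => ?_
    obtain ⟨a, ha, b, hb, rfl⟩ := Submodule.mem_sup.1
      ((H97.isCompl_fixed_moved hr f hf).sup_eq_top ▸ Submodule.mem_top : y ∈ H97.fixedSpace f ⊔ M)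
    rw [polarBilin_apply_apply, polar_add_right, polar_comm P v a, horth a ha v hv, zero_add,
      polar_comm]
    exact H5.mem_perp.1 hv' b hb
  have hMdim : finrank F M = d := by
    have h1 := LinearMap.finrank_range_add_finrank_ker (f - 1)
    rw [Module.finrank_fin_fun, show LinearMap.ker (f - 1) = H97.fixedSpace f from rfl, hfd] at h1
    have h2' : finrank F M + (n - d) = n := h1
    omega
  have heven := even_of_fpf (p := p) hr2 hr hd2 (P.restrict M) (H5.restrict_nondegenerate hnd) (f.restrict hMinv)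
    (LinearMap.ext fun v => Subtype.ext (by
      have : ∀ (k : ℕ) (v : M), (((f.restrict hMinv) ^ k) v : Fin n → F) = (f ^ k) v := by
        intro k
        induction k with
        | zero => intro v; rfl
        | succ k ih => intro v; rw [pow_succ, pow_succ, Module.End.mul_apply, ih]; rfl
      rw [this, hf]; rfl))
    (fun v => hPx v) (fun v hv => Subtype.ext (Submodule.disjoint_def.1 (H97.disjoint_fixed_moved hr f hf) _
      (H97.mem_fixedSpace.2 (congrArg Subtype.val hv)) v.2))
  rw [hMdim] at heven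
  exact Nat.not_even_iff_odd.2 hdo heven

/-- The fixed-point-free witness for forms of the wrong type. -/
theorem witness_fpf (hr2 : r ≠ 2) (hr : (r : F) ≠ 0) {p : ℕ} [Fact p.Prime] [CharP F p]
    (hd2 : 2 ≤ orderOf (Nat.card F : ZMod r)) {m : ℕ} (hnm : n = 2 * m) (hn : 0 < n)
    (hdn : orderOf (Nat.card F : ZMod r) ∣ n) (Q : QuadraticForm F (Fin n → F))
    (hQ : (polarBilin Q).Nondegenerate)
    (hbad : (H67.HasSing Q m ∧ (Nat.card F : ZMod r) ^ m = -1) ∨
      (¬ H67.HasSing Q m ∧ (Nat.card F : ZMod r) ^ m = 1)) : ∃ x, IsWitness (⇑Q) r x := by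
  set d := orderOf (Nat.card F : ZMod r) with hd
  obtain ⟨f, hf, hfd⟩ := H97.exists_element (F := F) (r := r) hr (Fin n → F) 0 (n / d)
    (by rw [Module.finrank_fin_fun, zero_add, Nat.div_mul_cancel hdn])
  have hdet : LinearMap.det f = 1 := H97.eq_one_of_pow_eq_one hd2 (by rw [← map_pow, hf, map_one])
  obtain ⟨x, hx⟩ := exists_gl_of_op f (by rw [hdet]; exact one_ne_zero)
  have hfix : ∀ v, f v = v → v = 0 := fun v hv => by
    have h : v ∈ H97.fixedSpace f := H97.mem_fixedSpace.2 hv
    rwa [Submodule.finrank_eq_zero.1 hfd, Submodule.mem_bot] at h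
  refine ⟨x, mem_special_iff.2 (by rw [hx, hdet]), ⟨1, by rw [hx, hf, one_smul]⟩, fun z hz => ?_, fun hg => ?_⟩
  · rw [hx] at hz
    have hf' := hf
    rw [hz, smul_pow, one_pow] at hf'
    have hz1 : z = 1 := H97.eq_one_of_pow_eq_one hd2 (by
      have := congrFun (LinearMap.congr_fun hf' fun _ => 1) ⟨0, hn⟩
      simpa using this)
    have h1 := hfix (fun _ => 1) (by rw [hz, hz1, one_smul]; rfl)
    exact one_ne_zero (α := F) (congrFun h1 ⟨0, hn⟩)
  obtain ⟨P, e, c, hP, -, hPx, hPe⟩ := form_of_good Q hQ x hg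
  rw [hx] at hPx
  have hne : ∃ v, P v ≠ 0 := by
    by_contra h
    push Not at h
    have hv : (fun _ => 1 : Fin n → F) = 0 := hP.1 _ fun y => by
      rw [polarBilin_apply_apply]; simp [polar, h]
    exact one_ne_zero (α := F) (congrFun hv ⟨0, hn⟩)
  have hc1 : c = 1 := H97.eq_one_of_pow_eq_one hd2 (mult_pow_eq_one hne hPx hf)
  subst hc1
  simp only [one_mul] at hPx
  let L : (Fin n → F) ≃ₗ[F] (Fin n → F) := LinearEquiv.ofBijective f ((Module.End.isUnit_iff f).1
    (IsUnit.of_pow_eq_one hf (Fact.out : r.Prime).ne_zero))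
  have hLk : ∀ (k : ℕ) v, (L ^ k) v = (f ^ k) v := by
    intro k
    induction k with
    | zero => intro v; rfl
    | succ k ih => intro v; rw [pow_succ', pow_succ', LinearEquiv.mul_apply, ih]; rfl
  have hx1 : (Fintype.card F : ZMod r) ≠ 1 := fun h => by
    rw [← Nat.card_eq_fintype_card] at h
    rw [orderOf_eq_one_iff.2 h] at hd
    omega
  have hT := H67.hasSing_iff_of_fpf (Fact.out : r.Prime) hr2 P hP (l := m)
    (by rw [Module.finrank_fin_fun, hnm]) L (LinearEquiv.ext fun v => by rw [hLk, hf]; rfl) hPx hfix hx1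
  rw [← Nat.card_eq_fintype_card] at hT
  rcases hbad with ⟨hs, hq⟩ | ⟨hs, hq⟩
  · exact hT.2 hq (hs.of_isom e.symm fun v => by rw [hPe, e.apply_symm_apply])
  · exact hs ((hT.1 hq).of_isom e fun v => (hPe v).symm)

end Cfsg.Agent.H98.FP
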