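import Cfsg.Agent.H98.FormPreserve.UIndex
import Cfsg.Agent.H98.FormPreserve.Witness

/-!
# Elements of `SL_n` preserving no Hermitian form up to scalars
-/

set_option autoImplicit false

namespace Cfsg.Agent.H98.FP

open Module
open scoped Matrix Classical

/-- `x` is a counterexample for the prime `r`. -/
def IsWitnessU {F : Type*} [Field F] {n : ℕ} (f : (Fin n → F) → (Fin n → F) → F) (r : ℕ)
    (x : GL (Fin n) F) : Prop :=
  x ∈ Cfsg.Geo.specialLinear (Fin n) F ∧ (∃ z : F, op x ^ r = z • 1) ∧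
    (∀ z : F, op x ≠ z • 1) ∧ ¬ GoodU f x

variable {F : Type*} [Field F] [Fintype F] {n q₀ : ℕ} (hF : Fintype.card F = q₀ ^ 2)
  {f : (Fin n → F) → (Fin n → F) → F} (hf : Cfsg.Geo.IsUnitaryFormPow q₀ f)

omit [Fintype F] in
/-- A scaled form is scaled by powers. -/
theorem scale_pow {V : Type*} [AddCommGroup V] [Module F V] {σ : F →+* F} {B : V →ₛₗ[σ] V →ₗ[F] F}
    {T : End F V} {c : F} (h : ∀ u v, B (T u) (T v) = c * B u v) :
    ∀ (k : ℕ) u v, B ((T ^ k) u) ((T ^ k) v) = c ^ k * B u v := by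
  intro k
  induction k with
  | zero => simp
  | succ k ih => intro u v; rw [pow_succ', Module.End.mul_apply, Module.End.mul_apply, h, ih, pow_succ']; ring

/-- Paired eigenvalues have equal multiplicities. -/
theorem diagU_mult_le {ι : Type*} [Fintype ι] [DecidableEq ι] {V : Type*} [AddCommGroup V] [Module F V]
    (hF : Fintype.card F = q₀ ^ 2) {B : V →ₛₗ[H3.conjQ hF] V →ₗ[F] F} (hB : H3.IsHerm B q₀)
    (b : Basis ι F V) (T : End F V) (μ : ι → F) (hT : ∀ i, T (b i) = μ i • b i) {c : F}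
    (hBT : ∀ u v, B (T u) (T v) = c * B u v) {a : F} (ha : a ≠ 0) :
    (Finset.univ.filter fun i => μ i = a).card ≤
      (Finset.univ.filter fun j => μ j = c / a ^ q₀).card := by
  have hG : ∀ i j, μ i ^ q₀ * μ j * B (b i) (b j) = c * B (b i) (b j) := fun i j => by
    have h := hBT (b i) (b j)
    rw [hT, hT, map_smul, LinearMap.map_smulₛₗ, LinearMap.smul_apply, smul_eq_mul, smul_eq_mul,
      hB.sigma_apply] at h
    linear_combination h
  set A := Finset.univ.filter fun i => μ i = a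
  set J := Finset.univ.filter fun j => μ j = c / a ^ q₀
  have hlin : LinearIndependent F fun i : A => fun j : J => B (b (j : ι)) (b (i : ι)) := by
    rw [Fintype.linearIndependent_iff]
    intro g hg i
    have hzero : ∑ i : A, g i • b (i : ι) = 0 := by
      refine hB.sep _ fun y => ?_
      rw [← hB.symm y, map_eq_zero]
      have hy : y = ∑ j, b.repr y j • b j := (b.sum_repr y).symm
      rw [hy, map_sum B, LinearMap.sum_apply]
      refine Finset.sum_eq_zero fun j _ => ?_
      rw [LinearMap.map_smulₛₗ, LinearMap.smul_apply, smul_eq_zero]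
      right
      rw [map_sum]
      by_cases hj : μ j = c / a ^ q₀
      · have h1 := congrFun hg ⟨j, Finset.mem_filter.2 ⟨Finset.mem_univ _, hj⟩⟩
        simpa using h1
      · refine Finset.sum_eq_zero fun i _ => ?_
        have hi : μ (i : ι) = a := (Finset.mem_filter.1 i.2).2
        have h1 := hG (i : ι) j
        rw [hi] at h1
        have h0 : B (b j) (b (i : ι)) = 0 := by
          rw [← hB.symm (b (i : ι)), map_eq_zero]
          by_contra h0
          exact hj (eq_div_of_mul_eq (pow_ne_zero _ ha) (by rw [mul_comm]; exact mul_right_cancel₀ h0 h1))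
        simp [h0]
    exact (Fintype.linearIndependent_iff.1 (b.linearIndependent.comp (fun i : A => (i : ι))
      Subtype.val_injective)) g hzero i
  simpa using hlin.fintype_card_le_finrank

include hF hf in
/-- Diagonal witnesses. -/
theorem witnessU_diag {r : ℕ} (hrodd : Odd r) {ζ w : F} (hζ : IsPrimitiveRoot ζ r) (hζq : ζ ^ q₀ = ζ)
    (hw : w ≠ 0) (e : Fin n → ℕ) (he : ∀ i, e i < r) (hdet : w ^ n * ζ ^ (∑ i, e i) = 1) (i₀ i₁ : Fin n)
    (h01 : e i₀ ≠ e i₁)
    (huniq : ∀ i, (Finset.univ.filter fun j => e j = e i).card =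
        (Finset.univ.filter fun j => e j = e i₀).card → e i = e i₀)
    (huniq' : ∀ i, (Finset.univ.filter fun j => e j = e i).card =
        (Finset.univ.filter fun j => e j = e i₁).card → e i = e i₁) :
    ∃ x, IsWitnessU f r x := by
  have hζ0 : ζ ≠ 0 := fun h => by
    have := hζ.pow_eq_one
    rw [h, zero_pow (by obtain ⟨k, hk⟩ := hrodd; omega)] at this
    exact zero_ne_one this
  let μ : Fin n → F := fun i => w * ζ ^ e i
  have hμ0 : ∀ i, μ i ≠ 0 := fun i => mul_ne_zero hw (pow_ne_zero _ hζ0)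
  have hμinj : ∀ {i j}, μ i = μ j ↔ e i = e j := fun {i j} =>
    ⟨fun h => hζ.pow_inj (he i) (he j) (mul_left_cancel₀ hw h), fun h => by simp only [μ, h]⟩
  have hdet' : (Matrix.diagonal μ).det = 1 := by
    rw [Matrix.det_diagonal, Finset.prod_mul_distrib, Finset.prod_const, Finset.card_univ,
      Fintype.card_fin, Finset.prod_pow_eq_pow_sum, hdet]
  let x : GL (Fin n) F := Matrix.GeneralLinearGroup.mkOfDetNeZero (Matrix.diagonal μ)
    (by rw [hdet']; exact one_ne_zero)
  have hT : ∀ i, op x (Pi.basisFun F (Fin n) i) = μ i • Pi.basisFun F (Fin n) i := fun i => by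
    show Matrix.toLin' (Matrix.diagonal μ) _ = _
    rw [Pi.basisFun_apply, Matrix.toLin'_apply, Matrix.mulVec_single_one]
    funext k
    by_cases hk : k = i
    · subst hk; simp
    · simp [hk, Matrix.diagonal_apply_ne _ hk]
  have hTk : ∀ (k : ℕ) i, (op x ^ k) (Pi.basisFun F (Fin n) i) = μ i ^ k • Pi.basisFun F (Fin n) i := by
    intro k i
    induction k with
    | zero => simp
    | succ k ih => rw [pow_succ', Module.End.mul_apply, ih, map_smul, hT, smul_smul, ← pow_succ]
  refine ⟨x, mem_special_iff.2 (by rw [op, LinearMap.det_toLin']; exact hdet'),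
    ⟨w ^ r, (Pi.basisFun F (Fin n)).ext fun i => ?_⟩, fun z hz => ?_, fun hg => ?_⟩
  · rw [hTk, LinearMap.smul_apply, Module.End.one_apply, mul_pow, ← pow_mul, mul_comm (e i), pow_mul,
      hζ.pow_eq_one, one_pow, mul_one]
  · have h : ∀ i, μ i = z := fun i => by
      have h1 := LinearMap.congr_fun hz (Pi.basisFun F (Fin n) i)
      rw [hT] at h1
      simpa using congrFun h1 i
    exact h01 (hμinj.1 ((h i₀).trans (h i₁).symm))
  obtain ⟨B, c, hB, hc, hcq, hBx⟩ := herm_of_goodU hF hf x hg i₀.pos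
  have hle := fun a ha => diagU_mult_le hF hB _ _ μ hT hBx (a := a) ha
  have hfix : ∀ i, (∀ k, (Finset.univ.filter fun j => e j = e k).card =
      (Finset.univ.filter fun j => e j = e i).card → e k = e i) → μ i ^ q₀ * μ i = c := by
    intro i hu
    have hne : c / μ i ^ q₀ ≠ 0 := div_ne_zero hc (pow_ne_zero _ (hμ0 i))
    have h1 := hle _ (hμ0 i)
    have h2 := hle _ hne
    rw [div_pow, H3.pow_q_pow_q hF, hcq, div_div_cancel₀ hc] at h2
    have heq := le_antisymm h1 h2
    obtain ⟨k, hk⟩ : (Finset.univ.filter fun j => μ j = c / μ i ^ q₀).Nonempty := by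
      refine Finset.card_pos.1 (lt_of_lt_of_le (Finset.card_pos.2 ⟨i, ?_⟩) h1)
      simp
    rw [Finset.mem_filter] at hk
    rw [← hk.2] at heq
    simp only [hμinj] at heq
    have hki := hμinj.2 (hu k heq.symm)
    rw [hk.2, div_eq_iff (pow_ne_zero _ (hμ0 i))] at hki
    rw [hki, mul_comm]
  have h1 := (hfix i₀ huniq).trans (hfix i₁ huniq').symm
  have hζm : ∀ m : ℕ, (ζ ^ m) ^ q₀ = ζ ^ m := fun m => by rw [← pow_mul, mul_comm, pow_mul, hζq]
  have h3 : ζ ^ (2 * e i₀) = ζ ^ (2 * e i₁) := by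
    refine mul_left_cancel₀ (mul_ne_zero (pow_ne_zero q₀ hw) hw) ?_
    simp only [μ, mul_pow, hζm] at h1
    rw [two_mul, two_mul, pow_add, pow_add]
    linear_combination h1
  obtain ⟨k, hk⟩ := hrodd
  have hroot : ∀ m : ℕ, (ζ ^ (2 * m)) ^ (k + 1) = ζ ^ m := fun m => by
    rw [← pow_mul, show 2 * m * (k + 1) = r * m + m by rw [hk]; ring, pow_add, pow_mul, hζ.pow_eq_one,
      one_pow, one_mul]
  exact h01 (hζ.pow_inj (he i₀) (he i₁) (by rw [← hroot, h3, hroot]))

variable {r : ℕ} [Fact r.Prime]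

include hF in
/-- No fixed-point-free isometry of order `r` in dimension `d`. -/
theorem not_isometry_order {V : Type*} [AddCommGroup V] [Module F V] [FiniteDimensional F V]
    {B : V →ₛₗ[H3.conjQ hF] V →ₗ[F] F} (hB : H3.IsHerm B q₀) {d : ℕ} (hV : finrank F V = d)
    (hd : d = orderOf (Nat.card F : ZMod r)) (hbad : (q₀ : ZMod r) ^ d ≠ (-1) ^ d) (hrq : (q₀ : ZMod r) ≠ 0)
    (T : End F V) (hT : T ^ r = 1) (hT1 : T ≠ 1) (hBT : ∀ u v, B (T u) (T v) = B u v) : False := by
  obtain ⟨e, he⟩ := exists_isometry hF hB (H3.isHerm_hermB hF d) hV (Module.finrank_fin_fun F)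
  have hrp := (Fact.out : r.Prime)
  have hconj : ∀ k : ℕ, ∀ v, ((e.conj T) ^ k) v = e ((T ^ k) (e.symm v)) := by
    intro k
    induction k with
    | zero => simp
    | succ k ih => intro v; rw [pow_succ', pow_succ', Module.End.mul_apply, ih]; simp [LinearEquiv.conj_apply]
  have hpow : (e.conj T) ^ r = 1 := LinearMap.ext fun v => by rw [hconj, hT]; simp
  obtain ⟨g, hg⟩ := exists_gl_of_op (e.conj T)
    ((LinearMap.isUnit_iff_isUnit_det _).1 (IsUnit.of_pow_eq_one hpow hrp.ne_zero)).ne_zero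
  have hgU : g ∈ Cfsg.GU d F q₀ := fun u v => by
    show Cfsg.hermForm d F q₀ (op g u) (op g v) = _
    rw [hg, ← H3.hermB_apply hF, ← H3.hermB_apply hF, LinearEquiv.conj_apply_apply,
      LinearEquiv.conj_apply_apply, he, hBT, ← he, e.apply_symm_apply, e.apply_symm_apply]
  have hgr : (⟨g, hgU⟩ : Cfsg.GU d F q₀) ^ r = 1 := Subtype.ext (op_inj (by
    show op (g ^ r) = op 1
    rw [op_pow, hg, hpow]; simp [op, Module.End.one_eq_id]))
  have hg1 : (⟨g, hgU⟩ : Cfsg.GU d F q₀) ≠ 1 := fun h => hT1 (e.conj.injective (by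
    rw [← hg, show g = 1 from congrArg Subtype.val h]
    refine LinearMap.ext fun v => ?_
    simp [op]))
  have hdvd : r ∣ Nat.card (Cfsg.GU d F q₀) := by
    rw [← orderOf_eq_prime hgr hg1]; exact orderOf_dvd_natCard _
  have h := Int.natCast_dvd_natCast.2 hdvd
  rw [card_GU_int hF] at h
  have hrp' : Prime (r : ℤ) := Nat.prime_iff_prime_int.1 hrp
  obtain ⟨i, hi, hri⟩ := (hrp'.dvd_finsetProd_iff _).1 ((hrp'.dvd_or_dvd h).resolve_left fun h => hrq (by
    rw [← Int.cast_natCast]
    exact (ZMod.intCast_zmod_eq_zero_iff_dvd _ _).2 (hrp'.dvd_of_dvd_pow h)))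
  rw [Finset.mem_range] at hi
  have h2 := (ZMod.intCast_zmod_eq_zero_iff_dvd _ _).2 hri
  push_cast at h2
  rw [sub_eq_zero] at h2
  have h3 : d ∣ i + 1 := by
    rw [hd]
    refine orderOf_dvd_of_pow_eq_one ?_
    rw [Nat.card_eq_fintype_card, hF, Nat.cast_pow, ← pow_mul, mul_comm, pow_mul, h2, ← pow_mul, mul_comm,
      pow_mul, neg_one_sq, one_pow]
  have h4 : i + 1 = d := by
    have := Nat.le_of_dvd (by omega) h3
    omega
  exact hbad (h4 ▸ h2)

include hF hf in
/-- The witness with one moved piece. -/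
theorem witnessU_piece (hr : (r : F) ≠ 0) (hd2 : 2 ≤ orderOf (Nat.card F : ZMod r))
    (hdn : orderOf (Nat.card F : ZMod r) ≤ n) (hrq : (q₀ : ZMod r) ≠ 0)
    (hbad : (q₀ : ZMod r) ^ orderOf (Nat.card F : ZMod r) ≠ (-1) ^ orderOf (Nat.card F : ZMod r))
    (hn : 0 < n) : ∃ x, IsWitnessU f r x := by
  set d := orderOf (Nat.card F : ZMod r) with hd
  obtain ⟨T, hT, hTd⟩ := H97.exists_element (F := F) (r := r) hr (Fin n → F) (n - d) 1
    (by rw [Module.finrank_fin_fun]; omega)
  have hdet : LinearMap.det T = 1 := H97.eq_one_of_pow_eq_one hd2 (by rw [← map_pow, hT, map_one])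
  obtain ⟨x, hx⟩ := exists_gl_of_op T (by rw [hdet]; exact one_ne_zero)
  have hMdim : finrank F (H97.movedSpace T) = d := by
    have h1 := LinearMap.finrank_range_add_finrank_ker (T - 1)
    rw [Module.finrank_fin_fun, show LinearMap.ker (T - 1) = H97.fixedSpace T from rfl, hTd] at h1
    have h2' : finrank F (H97.movedSpace T) + (n - d) = n := h1
    omega
  refine ⟨x, mem_special_iff.2 (by rw [hx, hdet]), ⟨1, by rw [hx, hT, one_smul]⟩, fun z hz => ?_, fun hg => ?_⟩
  · rw [hx] at hz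
    rw [hz, smul_pow, one_pow] at hT
    have hz1 : z = 1 := H97.eq_one_of_pow_eq_one hd2 (by
      have := congrFun (LinearMap.congr_fun hT fun _ => 1) ⟨0, hn⟩
      simpa using this)
    rw [hz, hz1, one_smul, show H97.fixedSpace (1 : End F (Fin n → F)) = ⊤ from Submodule.eq_top_iff'.2
      fun v => H97.mem_fixedSpace.2 rfl, finrank_top, Module.finrank_fin_fun] at hTd
    omega
  obtain ⟨B, c, hB, -, -, hBx⟩ := herm_of_goodU hF hf x hg hn
  rw [hx] at hBx
  obtain ⟨b, hb⟩ := hB.exists_orth_basis (Module.finrank_fin_fun F)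
  have hc1 : c = 1 := H97.eq_one_of_pow_eq_one hd2 (by
    have h := scale_pow hBx r (b ⟨0, hn⟩) (b ⟨0, hn⟩)
    rw [hT, Module.End.one_apply, hb, if_pos rfl, mul_one] at h
    exact h.symm)
  subst hc1
  simp only [one_mul] at hBx
  set M := H97.movedSpace T
  have hMinv : ∀ v ∈ M, T v ∈ M := fun v hv => H97.movedSpace_inv T ⟨v, hv, rfl⟩
  have horth : ∀ a ∈ H97.fixedSpace T, ∀ y ∈ M, B a y = 0 := by
    rintro a ha _ ⟨y, rfl⟩
    have h1 := hBx a y
    rw [H97.mem_fixedSpace.1 ha] at h1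
    rw [LinearMap.sub_apply, Module.End.one_apply, map_sub, h1, sub_self]
  let BM : M →ₛₗ[H3.conjQ hF] M →ₗ[F] F := (B.comp M.subtype).compl₂ M.subtype
  have hBM : H3.IsHerm BM q₀ := ⟨hF, hB.sigma_apply, fun u v => hB.symm _ _, fun v hv => by
    refine Subtype.ext (hB.sep _ fun y => ?_)
    obtain ⟨a, ha, m, hm, rfl⟩ := Submodule.mem_sup.1
      ((H97.isCompl_fixed_moved hr T hT).sup_eq_top ▸ Submodule.mem_top : y ∈ H97.fixedSpace T ⊔ M)
    have h0 : B (v : Fin n → F) a = 0 := by rw [← hB.symm, horth a ha v v.2, map_zero]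
    rw [map_add, h0, zero_add]
    exact hv ⟨m, hm⟩⟩
  have hres : ∀ (k : ℕ) (v : M), (((T.restrict hMinv) ^ k) v : Fin n → F) = (T ^ k) v := by
    intro k
    induction k with
    | zero => intro v; rfl
    | succ k ih => intro v; rw [pow_succ, pow_succ, Module.End.mul_apply, ih]; rfl
  refine not_isometry_order hF hBM hMdim hd hbad hrq (T.restrict hMinv)
    (LinearMap.ext fun v => Subtype.ext (by rw [hres, hT]; rfl)) (fun h => ?_) (fun u v => hBx u v)
  have hbot : M = ⊥ := (Submodule.eq_bot_iff _).2 fun v hv =>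
    Submodule.disjoint_def.1 (H97.disjoint_fixed_moved hr T hT) v
      (H97.mem_fixedSpace.2 (congrArg Subtype.val (LinearMap.congr_fun h ⟨v, hv⟩))) hv
  rw [hbot, finrank_bot] at hMdim
  omega

end Cfsg.Agent.H98.FP
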