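import Cfsg.Agent.H98.FormPreserve.Basic
import Cfsg.Agent.H97.SingerNormalizer
import Cfsg.Agent.H4.Classify

/-!
# The exceptional dimensions three and five
-/

set_option autoImplicit false

namespace Cfsg.Agent.H98.FP

open QuadraticMap hiding sq
open Module
open scoped Matrix

theorem sym_three : ∀ a b : Fin 3, a ≤ b → ∀ c : Fin 3, b ≤ c → a + b + c = 0 →
    ∃ k : Fin 3, ∀ i : Fin 3, ![a, b, c] (k - i) + ![a, b, c] i = ![a, b, c] k + a := by decide

theorem sym_five : ∀ a b : Fin 5, a ≤ b → ∀ c : Fin 5, b ≤ c → ∀ d : Fin 5, c ≤ d → ∀ e : Fin 5, d ≤ e →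
    a + b + c + d + e = 0 →
    ∃ k : Fin 5, ∀ i : Fin 5, ![a, b, c, d, e] (k - i) + ![a, b, c, d, e] i = ![a, b, c, d, e] k + a := by
  decide

/-- A zero-sum family of three or five residues is symmetrical. -/
theorem exists_symm {r : ℕ} [NeZero r] (hr : r = 3 ∨ r = 5) (e : Fin r → Fin r) (he : ∑ i, e i = 0) :
    ∃ (π : Equiv.Perm (Fin r)) (s : Fin r), (∀ i, π (π i) = i) ∧ ∀ i, e (π i) + e i = s := by
  have hmain : ∀ v : Fin r → Fin r, Monotone v → ∑ i, v i = 0 →
      ∃ k : Fin r, ∀ i, v (k - i) + v i = v k + v 0 := by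
    rcases hr with rfl | rfl
    · intro v hv hs
      rw [Fin.sum_univ_three] at hs
      obtain ⟨k, hk⟩ := sym_three (v 0) (v 1) (hv (Fin.le_iff_val_le_val.2 (by norm_num))) (v 2) (hv (Fin.le_iff_val_le_val.2 (by norm_num))) hs
      have hvv : v = ![v 0, v 1, v 2] := by funext i; fin_cases i <;> rfl
      exact ⟨k, fun i => by rw [hvv]; exact hk i⟩
    · intro v hv hs
      rw [Fin.sum_univ_five] at hs
      obtain ⟨k, hk⟩ := sym_five (v 0) (v 1) (hv (Fin.le_iff_val_le_val.2 (by norm_num))) (v 2) (hv (Fin.le_iff_val_le_val.2 (by norm_num))) (v 3) (hv (Fin.le_iff_val_le_val.2 (by norm_num)))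
        (v 4) (hv (Fin.le_iff_val_le_val.2 (by norm_num))) hs
      have hvv : v = ![v 0, v 1, v 2, v 3, v 4] := by funext i; fin_cases i <;> rfl
      exact ⟨k, fun i => by rw [hvv]; exact hk i⟩
  set σ := Tuple.sort e
  obtain ⟨k, hk⟩ := hmain (e ∘ σ) (Tuple.monotone_sort e) (by
    rw [← he]; exact Equiv.sum_comp σ e)
  refine ⟨σ.symm.trans ((Equiv.subLeft k).trans σ), e (σ k) + e (σ 0), fun i => ?_, fun i => ?_⟩
  · simp
  · have := hk (σ.symm i)
    simpa using this

variable {F : Type*} [Field F] [Fintype F]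

/-- In dimension `r ∈ {3, 5}` with `(q - 1)_r = r` every element preserves a form. -/
theorem good_exceptional (h2 : (2 : F) ≠ 0) {r : ℕ} [Fact r.Prime] (hr35 : r = 3 ∨ r = 5)
    (hv : padicValNat r (Nat.card F - 1) = 1) (hr : (r : F) ≠ 0) (Q : QuadraticForm F (Fin r → F))
    (hQ : (polarBilin Q).Nondegenerate) (x : GL (Fin r) F) (hdet : LinearMap.det (op x) = 1) {z : F}
    (hz0 : z ≠ 0) (hx : op x ^ r = z • 1) : Good ⇑Q x := by
  classical
  have hrp := (Fact.out : r.Prime)
  haveI : NeZero r := ⟨hrp.ne_zero⟩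
  have hodd : Odd r := by rcases hr35 with rfl | rfl <;> decide
  -- the scalar is one
  obtain ⟨w, hw⟩ : ∃ w : F, w ^ r = z := by
    by_contra h
    push Not at h
    obtain ⟨l, hl, hd⟩ := H97.twisted_det hz0 h (op x) hx
    rw [Module.finrank_fin_fun] at hl
    have hl1 : l = 1 := Nat.eq_of_mul_eq_mul_right hrp.pos (by rw [one_mul]; exact hl.symm)
    rw [hdet, hl1, pow_one, Even.neg_one_pow (Nat.Odd.sub_odd hodd odd_one), one_mul] at hd
    exact h 1 (by rw [one_pow, hd])
  have hq1 : r ∣ Nat.card F - 1 := dvd_of_one_le_padicValNat (by rw [hv])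
  have hNpos : Nat.card F - 1 ≠ 0 := by
    have := Finite.one_lt_card (α := F)
    omega
  have hz1 : z = 1 := by
    have hw0 : w ≠ 0 := fun h => hz0 (by rw [← hw, h, zero_pow hrp.ne_zero])
    have h1 : (w ^ r) ^ r = 1 := by
      have h3 := congrArg LinearMap.det hx
      rw [map_pow, hdet, one_pow, LinearMap.det_smul, map_one, mul_one, Module.finrank_fin_fun] at h3
      rw [hw]; exact h3.symm
    let u := Units.mk0 w hw0
    have hu : orderOf u ∣ r ^ 2 := orderOf_dvd_of_pow_eq_one (Units.ext (by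
      rw [Units.val_pow_eq_pow_val, Units.val_mk0, sq, pow_mul, h1, Units.val_one]))
    have hu' : orderOf u ∣ Nat.card F - 1 := by
      rw [← Nat.card_units]; exact orderOf_dvd_natCard u
    obtain ⟨i, hi, hiu⟩ := (Nat.dvd_prime_pow hrp).1 hu
    have hi1 : i ≤ 1 := by
      rw [hiu, padicValNat_dvd_iff_le hNpos, hv] at hu'
      exact hu'
    have hur : u ^ r = 1 := by
      refine orderOf_dvd_iff_pow_eq_one.1 ?_
      rw [hiu]
      exact (pow_dvd_pow r hi1).trans (by rw [pow_one])
    rw [← hw]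
    simpa [u] using congrArg Units.val hur
  subst hz1
  rw [one_smul] at hx
  obtain ⟨ζ, hζ⟩ : ∃ ζ : F, IsPrimitiveRoot ζ r := by
    obtain ⟨g, hg⟩ := exists_prime_orderOf_dvd_card' (G := Fˣ) r (by rwa [Nat.card_units])
    exact ⟨g, IsPrimitiveRoot.coe_units_iff.2 (IsPrimitiveRoot.iff_orderOf.2 hg)⟩
  obtain ⟨b, e, he, hb⟩ := H97.exists_eigenbasis (n := r) hr hζ (Module.finrank_fin_fun F) (op x) hx
  have hsum : r ∣ ∑ i, e i := by
    have h := H97.det_monomial b (op x) 1 _ hb
    rw [hdet, Equiv.Perm.sign_one] at h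
    simp only [Units.val_one, Int.cast_one, one_mul, Finset.prod_pow_eq_pow_sum] at h
    exact hζ.dvd_of_pow_eq_one _ h.symm
  let e' : Fin r → Fin r := fun i => ⟨e i, he i⟩
  obtain ⟨π, s, hπ, hs⟩ := exists_symm hr35 e' (by
    apply Fin.ext
    have : ∀ t : Finset (Fin r), ((∑ i ∈ t, e' i : Fin r) : ℕ) = (∑ i ∈ t, e i) % r := by
      intro t
      induction t using Finset.induction_on with
      | empty => simp
      | insert a t ha ih =>
        rw [Finset.sum_insert ha, Finset.sum_insert ha, Fin.val_add, ih, Nat.add_mod_mod]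
    rw [this, Nat.mod_eq_zero_of_dvd hsum]
    rfl)
  have hc : ∀ i, ζ ^ e (π i) * ζ ^ e i = ζ ^ (s : ℕ) := fun i => by
    rw [← hs i, Fin.val_add, ← pow_add]
    exact pow_eq_pow_mod _ hζ.pow_eq_one
  -- the invariant form
  let G : Matrix (Fin r) (Fin r) F := Matrix.of fun i j => if j = π i then 1 else 0
  let B : LinearMap.BilinForm F (Fin r → F) := Matrix.toBilin b G
  have hB : ∀ i j, B (b i) (b j) = if j = π i then 1 else 0 := fun i j => by
    have h := congrFun (congrFun (LinearMap.BilinForm.toMatrix_toBilin b G) i) j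
    rw [LinearMap.BilinForm.toMatrix_apply] at h
    exact h
  have hBs : ∀ u v, B u v = B v u := by
    have : B = B.flip := by
      refine LinearMap.ext_basis b b fun i j => ?_
      rw [LinearMap.BilinForm.flip_apply, hB, hB]
      exact if_congr ⟨fun h => by rw [h, hπ], fun h => by rw [h, hπ]⟩ rfl rfl
    exact fun u v => LinearMap.congr_fun (LinearMap.congr_fun this u) v
  let P : QuadraticForm F (Fin r → F) := LinearMap.BilinMap.toQuadraticMap B
  have hP : (polarBilin P).Nondegenerate := by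
    have hpol : polarBilin P = (2 : F) • B := LinearMap.ext fun u => LinearMap.ext fun v => by
      rw [polarBilin_apply_apply, LinearMap.smul_apply, LinearMap.smul_apply, smul_eq_mul,
        LinearMap.BilinMap.polar_toQuadraticMap, hBs v u, two_mul]
    have hBn : B.Nondegenerate := by
      refine (LinearMap.BilinForm.nondegenerate_iff_det_ne_zero b).2 ?_
      rw [LinearMap.BilinForm.toMatrix_toBilin]
      have : G = π.permMatrix F := by
        ext i j
        simp [G, Equiv.Perm.permMatrix, PEquiv.toMatrix_apply, eq_comm]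
      rw [this, Matrix.det_permutation]
      exact ((Equiv.Perm.sign π).isUnit.map (Int.castRingHom F)).ne_zero
    rw [hpol]
    refine ⟨fun u hu => hBn.1 u fun v => ?_, fun v hv => hBn.2 v fun u => ?_⟩
    · exact (mul_eq_zero.1 (hu v)).resolve_left h2
    · exact (mul_eq_zero.1 (hv u)).resolve_left h2
  have hPT : ∀ v, P (op x v) = ζ ^ (s : ℕ) * P v := fun v => by
    have h : B.compl₁₂ (op x) (op x) = (ζ ^ (s : ℕ)) • B := by
      refine LinearMap.ext_basis b b fun i j => ?_
      rw [LinearMap.compl₁₂_apply, hb, hb]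
      simp only [map_smul, LinearMap.smul_apply, hB, smul_eq_mul]
      by_cases hj : j = π i
      · subst hj; rw [if_pos rfl, ← hc i]; ring
      · rw [if_neg hj]; ring
    exact LinearMap.congr_fun (LinearMap.congr_fun h v) v
  obtain ⟨m, hm⟩ := hodd
  have hfr : finrank F (Fin r → F) = 2 * m + 1 := by rw [Module.finrank_fin_fun, hm]
  obtain ⟨-, a, ha, g, hg⟩ := H4.isom_std_odd hP hfr
  obtain ⟨-, a', ha', g', hg'⟩ := H4.isom_std_odd hQ hfr
  have hζ0 : ζ ≠ 0 := hζ.ne_zero hrp.ne_zero
  refine good_of_form Q x (pow_ne_zero (s : ℕ) hζ0) (g.trans g'.symm) (fun v => ?_)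
    fun t _ => det_comm_of_eigenbasis b _ _ hb t
  have key : ∀ u, Q ((g.trans g'.symm) u) = a' / a * P u := fun u => by
    rw [LinearEquiv.trans_apply, ← hg', g'.apply_symm_apply, ← hg u]
    field_simp
  rw [key, key, hPT]
  ring

end Cfsg.Agent.H98.FP
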