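import Cfsg.Agent.H98.FormPreserve.Basic
import Cfsg.Agent.H4.Orders
import Cfsg.Agent.H67.OrthTypes

/-!
# Primes dividing the index of an orthogonal similarity group in `SL_n`
-/

set_option autoImplicit false

namespace Cfsg.Agent.H98.FP

open QuadraticMap hiding sq
open Module
open scoped Matrix

variable {F : Type*} [Field F] [Fintype F] {n : ℕ}

/-- Splitting a product by parity. -/
theorem prod_range_two_mul {M : Type*} [CommMonoid M] (f : ℕ → M) (m : ℕ) :
    ∏ i ∈ Finset.range (2 * m), f i =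
      (∏ j ∈ Finset.range m, f (2 * j)) * ∏ j ∈ Finset.range m, f (2 * j + 1) := by
  induction m with
  | zero => simp
  | succ m ih =>
    rw [show 2 * (m + 1) = 2 * m + 1 + 1 by ring, Finset.prod_range_succ, Finset.prod_range_succ, ih,
      Finset.prod_range_succ, Finset.prod_range_succ]
    simp [mul_assoc, mul_left_comm]

/-- `|GL_n(q)|` as an integer. -/
theorem card_GL_int : ∃ a : ℕ, (Nat.card (GL (Fin n) F) : ℤ) = (Fintype.card F : ℤ) ^ a *
    ∏ i ∈ Finset.range n, ((Fintype.card F : ℤ) ^ (i + 1) - 1) := by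
  refine ⟨∑ i ∈ Finset.range n, i, ?_⟩
  rw [Matrix.card_GL_field, Fin.prod_univ_eq_prod_range (fun i => Fintype.card F ^ n - Fintype.card F ^ i),
    Nat.cast_prod, ← Finset.prod_pow_eq_pow_sum,
    ← Finset.prod_range_reflect (fun i => (Fintype.card F : ℤ) ^ (i + 1) - 1), ← Finset.prod_mul_distrib]
  refine Finset.prod_congr rfl fun i hi => ?_
  rw [Finset.mem_range] at hi
  rw [Nat.cast_sub (Nat.pow_le_pow_right Fintype.card_pos hi.le), Nat.cast_pow, Nat.cast_pow, mul_sub,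
    mul_one, ← pow_add]
  congr 2
  omega

/-- The index times the order of the isometry group divides twice the order of `GL`. -/
theorem relIndex_mul_card_dvd (Q : QuadraticForm F (Fin n → F)) (hQ : (polarBilin Q).Nondegenerate) :
    (Cfsg.Geo.quadSimilarityGroup ⇑Q).relIndex (Cfsg.Geo.specialLinear (Fin n) F) *
      Nat.card (Cfsg.isometryGroup F ⇑Q) ∣ 2 * Nat.card (GL (Fin n) F) := by
  classical
  set SL := Cfsg.Geo.specialLinear (Fin n) F
  set O := Cfsg.isometryGroup F ⇑Q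
  set S := Cfsg.Geo.quadSimilarityGroup ⇑Q
  have hle : O ⊓ SL ≤ S ⊓ SL := fun g hg => ⟨⟨1, fun v => by
    rw [Units.val_one, one_mul]; exact hg.1 v v⟩, hg.2⟩
  let ψ : O →* Fˣ := (Matrix.GeneralLinearGroup.det : GL (Fin n) F →* Fˣ).comp O.subtype
  have hker : Nat.card ψ.ker = Nat.card (O ⊓ SL : Subgroup (GL (Fin n) F)) :=
    Nat.card_congr ⟨fun g => ⟨g.1.1, g.1.2, g.2⟩, fun g => ⟨⟨g.1, g.2.1⟩, g.2.2⟩, fun _ => rfl, fun _ => rfl⟩
  have hrange : Nat.card ψ.range ∣ 2 := by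
    have hsq : ∀ u ∈ ψ.range, u ^ 2 = 1 := by
      rintro _ ⟨g, rfl⟩
      have hmap : ∀ v, Q (op (g : GL (Fin n) F) v) = 1 * Q v := fun v => by
        rw [one_mul]; exact g.2 v v
      let L : (Fin n → F) ≃ₗ[F] (Fin n → F) := LinearEquiv.ofBijective (op (g : GL (Fin n) F))
        ((Module.End.isUnit_iff _).1 ((LinearMap.isUnit_iff_isUnit_det _).2 (by
          rw [op, LinearMap.det_toLin']; exact ((Matrix.isUnit_iff_isUnit_det _).1 (g : GL (Fin n) F).isUnit))))
      have h := H4.det_sq_of_similar hQ L hmap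
      rw [one_pow] at h
      refine Units.ext ?_
      rw [Units.val_pow_eq_pow_val, Units.val_one, ← h]
      congr 1
      exact (LinearMap.det_toLin' _).symm
    have h2 : Nat.card ψ.range ≤ 2 := by
      refine le_trans (Nat.card_mono (Set.toFinite ({1, -1} : Set Fˣ)) fun u hu => ?_) ?_
      · rcases sq_eq_one_iff.1 (show (u : F) ^ 2 = 1 from by
          rw [← Units.val_pow_eq_pow_val, hsq u hu, Units.val_one]) with h | h
        · exact Or.inl (Units.ext h)
        · exact Or.inr (Units.ext (by rw [Units.val_neg, Units.val_one]; exact h))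
      · rw [Nat.card_coe_set_eq]; exact (Set.ncard_insert_le _ _).trans (by simp)
    have h1 : 0 < Nat.card ψ.range := Nat.card_pos
    interval_cases Nat.card ψ.range <;> norm_num
  have hO : Nat.card O ∣ 2 * Nat.card (O ⊓ SL : Subgroup (GL (Fin n) F)) := by
    rw [← ψ.ker.card_mul_index, Subgroup.index_ker, hker, mul_comm 2]
    exact Nat.mul_dvd_mul_left _ hrange
  have hSL : Nat.card (S ⊓ SL : Subgroup (GL (Fin n) F)) * S.relIndex SL = Nat.card SL := by
    rw [← Subgroup.inf_relIndex_right, Subgroup.relIndex,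
      ← Nat.card_congr (Subgroup.subgroupOfEquivOfLe (inf_le_right : S ⊓ SL ≤ SL)).toEquiv,
      Subgroup.card_mul_index]
  calc S.relIndex SL * Nat.card O ∣ S.relIndex SL * (2 * Nat.card (S ⊓ SL : Subgroup (GL (Fin n) F))) :=
        Nat.mul_dvd_mul_left _ (hO.trans (Nat.mul_dvd_mul_left 2 (Subgroup.card_dvd_of_le hle)))
    _ = 2 * Nat.card SL := by rw [← hSL]; ring
    _ ∣ 2 * Nat.card (GL (Fin n) F) := Nat.mul_dvd_mul_left 2 (Subgroup.card_subgroup_dvd_card SL)

/-- Isometry groups of similar forms correspond. -/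
def isomsEquiv {V V' : Type*} [AddCommGroup V] [Module F V] [AddCommGroup V'] [Module F V']
    {Q : QuadraticForm F V} {Q' : QuadraticForm F V'} (g : V ≃ₗ[F] V') {c : F} (hc : c ≠ 0)
    (hg : ∀ v, c * Q' (g v) = Q v) : H4.qIsoms Q ≃ H4.qIsoms Q' where
  toFun k := ⟨(g.symm.trans k.1).trans g, fun v => by
    have h := k.2 (g.symm v)
    rw [← hg, ← hg, g.apply_symm_apply] at h
    exact mul_left_cancel₀ hc h⟩
  invFun k := ⟨(g.trans k.1).trans g.symm, fun v => by
    show Q (g.symm (k.1 (g v))) = Q v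
    rw [← hg, g.apply_symm_apply, ← hg v]
    exact congrArg (c * ·) (k.2 (g v))⟩
  left_inv k := Subtype.ext (LinearEquiv.ext fun v => by simp)
  right_inv k := Subtype.ext (LinearEquiv.ext fun v => by simp)

/-- Either `r` divides some `q ^ i - 1` with `i ≤ n` odd, or the form has the wrong type. -/
theorem dvd_index_cases {r : ℕ} [Fact r.Prime] (hrq : (Fintype.card F : ZMod r) ≠ 0)
    (h2 : (2 : F) ≠ 0) (Q : QuadraticForm F (Fin n → F)) (hQ : (polarBilin Q).Nondegenerate)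
    (hΩ : r ∣ (Cfsg.Geo.quadSimilarityGroup ⇑Q).relIndex (Cfsg.Geo.specialLinear (Fin n) F)) :
    (∃ i, Odd i ∧ i ≤ n ∧ (Fintype.card F : ZMod r) ^ i = 1) ∨
    ∃ m, n = 2 * m ∧ ((H67.HasSing Q m ∧ (Fintype.card F : ZMod r) ^ m = -1) ∨
      (¬ H67.HasSing Q m ∧ (Fintype.card F : ZMod r) ^ m = 1)) := by
  classical
  set q : ℤ := (Fintype.card F : ℤ) with hq
  obtain ⟨a, hGL⟩ := card_GL_int (F := F) (n := n)
  have hdvd := relIndex_mul_card_dvd Q hQ
  rw [H4.card_isometryGroup Q rfl] at hdvd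
  have hdvd' := Int.natCast_dvd_natCast.2 hdvd
  rw [Nat.cast_mul, Nat.cast_mul, hGL] at hdvd'
  set I : ℤ := (((Cfsg.Geo.quadSimilarityGroup ⇑Q).relIndex (Cfsg.Geo.specialLinear (Fin n) F) : ℕ) : ℤ)
  have hrI : (r : ℤ) ∣ I := Int.natCast_dvd_natCast.2 hΩ
  have hrp : Prime (r : ℤ) := Nat.prime_iff_prime_int.1 Fact.out
  have hq1 : (1 : ℤ) < q := by rw [hq]; exact_mod_cast Fintype.one_lt_card
  have hq0 : q ≠ 0 := by omega
  have hpm : ∀ k : ℕ, k ≠ 0 → q ^ k - 1 ≠ 0 := fun k hk =>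
    sub_ne_zero.2 (one_lt_pow₀ hq1 hk).ne'
  have hrq' : ¬ (r : ℤ) ∣ q := fun h => hrq (by
    rw [← Int.cast_natCast, ← hq]; exact (ZMod.intCast_zmod_eq_zero_iff_dvd _ _).2 h)
  have hodd : ∀ j, (r : ℤ) ∣ ∏ i ∈ Finset.range j, (q ^ (2 * i + 1) - 1) →
      ∃ i, Odd i ∧ i ≤ 2 * j - 1 ∧ (Fintype.card F : ZMod r) ^ i = 1 := fun j hj => by
    obtain ⟨i, hi, hri⟩ := (hrp.dvd_finsetProd_iff _).1 hj
    rw [Finset.mem_range] at hi
    refine ⟨2 * i + 1, odd_two_mul_add_one i, by omega, ?_⟩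
    have h := (ZMod.intCast_zmod_eq_zero_iff_dvd _ _).2 hri
    rw [hq] at h
    push_cast at h
    exact sub_eq_zero.1 h
  rcases Nat.even_or_odd' n with ⟨m, hm | hm⟩
  swap
  · -- odd dimension
    left
    obtain ⟨-, c, hc, g, hg⟩ := H4.isom_std_odd hQ (m := m) (by rw [Module.finrank_fin_fun, hm])
    let e := isomsEquiv (Q' := H4.qOdd m F) g hc hg
    rw [Nat.card_congr e, H4.card_qIsoms_qOdd h2, show Finset.range n = Finset.range (2 * m + 1) by rw [hm],
      Finset.prod_range_succ, prod_range_two_mul,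
      ← hq] at hdvd'
    set E := ∏ j ∈ Finset.range m, (q ^ (2 * (j + 1)) - 1) with hE
    have hE0 : E ≠ 0 := Finset.prod_ne_zero_iff.2 fun j _ => hpm _ (by omega)
    rw [show (∏ j ∈ Finset.range m, (q ^ (2 * j + 1 + 1) - 1)) = E from
      Finset.prod_congr rfl fun j _ => by rw [show 2 * j + 1 + 1 = 2 * (j + 1) by ring]] at hdvd'
    have h3 : I * q ^ (m ^ 2) * (2 * E) ∣
        q ^ a * ((∏ j ∈ Finset.range m, (q ^ (2 * j + 1) - 1)) * (q ^ (2 * m + 1) - 1)) * (2 * E) := by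
      convert hdvd' using 1 <;> push_cast <;> ring
    have h4 := (Dvd.intro _ rfl : (r : ℤ) ∣ (r : ℤ) * 1)
    have h5 := ((dvd_mul_of_dvd_left hrI _).trans ((mul_dvd_mul_iff_right (mul_ne_zero two_ne_zero hE0)).1 h3))
    rw [← Finset.prod_range_succ (fun j => q ^ (2 * j + 1) - 1)] at h5
    obtain ⟨i, hi, hile, hiq⟩ := hodd (m + 1) ((hrp.dvd_or_dvd h5).resolve_left
      fun h => hrq' (hrp.dvd_of_dvd_pow h))
    exact ⟨i, hi, by omega, hiq⟩
  -- even dimension
  obtain ⟨j, rfl⟩ | hm0 : (∃ j, m = j + 1) ∨ m = 0 := by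
    rcases m with _ | j
    · exact Or.inr rfl
    · exact Or.inl ⟨j, rfl⟩
  swap
  · exfalso
    subst hm0
    haveI : Subsingleton (GL (Fin n) F) := by
      have hn0 : n = 0 := by omega
      subst hn0
      exact ⟨fun a b => Units.ext (Subsingleton.elim _ _)⟩
    rw [Subgroup.relIndex, Subgroup.index_eq_one.2 (Subsingleton.elim _ _)] at hΩ
    exact (Fact.out : r.Prime).one_lt.ne' (Nat.dvd_one.1 hΩ)
  set E := ∏ i ∈ Finset.range j, (q ^ (2 * (i + 1)) - 1)
  have hE0 : E ≠ 0 := Finset.prod_ne_zero_iff.2 fun i _ => hpm _ (by omega)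
  set D := ∏ i ∈ Finset.range (j + 1), (q ^ (2 * i + 1) - 1)
  rw [show Finset.range n = Finset.range (2 * (j + 1)) by rw [hm], prod_range_two_mul,
    Finset.prod_range_succ (fun i => q ^ (2 * i + 1 + 1) - 1),
    show (∏ i ∈ Finset.range j, (q ^ (2 * i + 1 + 1) - 1)) = E from
      Finset.prod_congr rfl fun i _ => by rw [show 2 * i + 1 + 1 = 2 * (i + 1) by ring],
    show 2 * j + 1 + 1 = 2 * (j + 1) by ring] at hdvd'
  rcases H4.isom_std_even hQ (m := j + 1) (by rw [Module.finrank_fin_fun, hm]) with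
    ⟨g, hg⟩ | ⟨-, ζ, hζ, g, hg⟩
  · rw [Nat.card_congr (isomsEquiv g one_ne_zero (fun v => by rw [one_mul, hg v])), H4.card_qIsoms_qPlus, ← hq] at hdvd'
    have h3 : I * q ^ ((j + 1) * j) * (2 * (q ^ (j + 1) - 1) * E) ∣
        q ^ a * (D * (q ^ (j + 1) + 1)) * (2 * (q ^ (j + 1) - 1) * E) := by
      convert hdvd' using 1
      · ring
      · push_cast; ring
    have h5 := (dvd_mul_of_dvd_left hrI _).trans
      ((mul_dvd_mul_iff_right (mul_ne_zero (mul_ne_zero two_ne_zero (hpm _ (by omega))) hE0)).1 h3)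
    rcases hrp.dvd_or_dvd ((hrp.dvd_or_dvd h5).resolve_left fun h => hrq' (hrp.dvd_of_dvd_pow h)) with h | h
    · obtain ⟨i, hi, hile, hiq⟩ := hodd _ h
      exact Or.inl ⟨i, hi, by omega, hiq⟩
    · refine Or.inr ⟨j + 1, hm, Or.inl ⟨(H67.hasSing_qPlus (j + 1)).of_isom g.symm
        (fun v => by rw [← hg, g.apply_symm_apply]), ?_⟩⟩
      have h' := (ZMod.intCast_zmod_eq_zero_iff_dvd _ _).2 h
      rw [hq] at h'
      push_cast at h'
      exact eq_neg_of_add_eq_zero_left h'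
  · rw [Nat.card_congr (isomsEquiv g one_ne_zero (fun v => by rw [one_mul, hg v])), H4.card_qIsoms_qMinus (H67.aniso_of_one hζ)
      (H4.disc_ne_zero (H67.aniso_of_one hζ)), Nat.add_sub_cancel, ← hq] at hdvd'
    have hp0 : q ^ (j + 1) + 1 ≠ 0 := by
      have := one_lt_pow₀ hq1 (show j + 1 ≠ 0 by omega)
      omega
    have h3 : I * q ^ ((j + 1) * j) * (2 * (q ^ (j + 1) + 1) * E) ∣
        q ^ a * (D * (q ^ (j + 1) - 1)) * (2 * (q ^ (j + 1) + 1) * E) := by
      convert hdvd' using 1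
      · ring
      · push_cast; ring
    have h5 := (dvd_mul_of_dvd_left hrI _).trans
      ((mul_dvd_mul_iff_right (mul_ne_zero (mul_ne_zero two_ne_zero hp0) hE0)).1 h3)
    rcases hrp.dvd_or_dvd ((hrp.dvd_or_dvd h5).resolve_left fun h => hrq' (hrp.dvd_of_dvd_pow h)) with h | h
    · obtain ⟨i, hi, hile, hiq⟩ := hodd _ h
      exact Or.inl ⟨i, hi, by omega, hiq⟩
    · refine Or.inr ⟨j + 1, hm, Or.inr ⟨?_, ?_⟩⟩
      · intro hs
        obtain ⟨W, hW, hWd⟩ := hs.of_isom g hg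
        exact H4.qMinus_no_singular (H67.aniso_of_one hζ) _ W hW (by simpa using hWd)
      · have h' := (ZMod.intCast_zmod_eq_zero_iff_dvd _ _).2 h
        rw [hq] at h'
        push_cast at h'
        exact sub_eq_zero.1 h'

end Cfsg.Agent.H98.FP
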