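import Cfsg.Agent.H98.FormPreserve.Basic

/-!
# Operators with non-square scalar square preserve a transform of every quadratic form
-/

set_option autoImplicit false

namespace Cfsg.Agent.H98.FP

open QuadraticMap hiding sq
open Module
open scoped Matrix

variable {F : Type*} [Field F] [Fintype F] {n : ℕ}

/-- Blocks `a + c T` on the first pair realise every determinant. -/
theorem exists_norm_rep (h2 : (2 : F) ≠ 0) {z : F} (hz : z ≠ 0) (t : F) :
    ∃ a c : F, a * a - z * c * c = t := by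
  obtain ⟨X, Y, h⟩ := H62.InvSim.exists_binary (α := (1 : F)) (β := -z) (γ := -t) h2 one_ne_zero
    (neg_ne_zero.2 hz)
  exact ⟨X, Y, by linear_combination h⟩

/-- Operators with non-square scalar square are similarities of a transform of every form. -/
theorem good_of_sq_nonsquare (h2 : (2 : F) ≠ 0) (hn : 0 < n) (Q : QuadraticForm F (Fin n → F))
    (hQ : (polarBilin Q).Nondegenerate) (x : GL (Fin n) F) {z : F} (hz0 : z ≠ 0)
    (hz : ∀ w : F, w ^ 2 ≠ z) (hx : op x ^ 2 = z • 1) : Good ⇑Q x := by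
  classical
  haveI : Fact (Nat.Prime 2) := ⟨Nat.prime_two⟩
  set T := op x
  obtain ⟨l, w, b, hb⟩ := H97.exists_twisted_basis (r := 2) hz0 hz T hx
  have hdim : n = l * 2 := by
    have := Module.finrank_eq_card_basis b
    rwa [Module.finrank_fin_fun, Fintype.card_prod, Fintype.card_fin, Fintype.card_fin] at this
  have hT0 : ∀ k, T (b (k, 0)) = b (k, 1) := fun k => by rw [hb, hb]; simp
  have hT1 : ∀ k, T (b (k, 1)) = z • b (k, 0) := fun k => by
    rw [hb, hb, ← Module.End.mul_apply]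
    simp only [Fin.val_one, Fin.val_zero, pow_one, pow_zero, Module.End.one_apply]
    rw [← sq, hx]; rfl
  obtain ⟨m, rfl⟩ : ∃ m, n = m + 1 := ⟨n - 1, by omega⟩
  obtain ⟨α, hα⟩ := H5.exists_not_isSquare (F := F) h2
  obtain ⟨ob₀, d, hd, hobp₀, hobv⟩ := H4.exists_orth_basis h2 hQ (n := m) (Module.finrank_fin_fun F) α hα
  have hob0 : ∀ i, Q (ob₀ i) ≠ 0 := fun i => by
    rw [hobv]
    split
    · rcases hd with rfl | rfl
      · exact one_ne_zero
      · exact fun h => hα (h ▸ IsSquare.zero)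
    · exact one_ne_zero
  let e : Fin (m + 1) ≃ Fin l × Fin 2 := (finCongr hdim).trans finProdFinEquiv.symm
  let ob := ob₀.reindex e
  have hobp : ∀ i j, i ≠ j → polar Q (ob i) (ob j) = 0 := fun i j hij => by
    simp only [ob, Basis.reindex_apply]; exact hobp₀ _ _ fun h => hij (e.symm.injective h)
  have hobq : ∀ i, Q (ob i) ≠ 0 := fun i => by simp only [ob, Basis.reindex_apply]; exact hob0 _
  -- the second vector of each plane
  have hval : ∀ k, ∃ s t : F, t ≠ 0 ∧
      s ^ 2 * Q (ob (k, 0)) + t ^ 2 * Q (ob (k, 1)) = z * Q (ob (k, 0)) := fun k => by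
    obtain ⟨X, Y, h⟩ := H62.InvSim.exists_binary (γ := -(z * Q (ob (k, 0)))) h2 (hobq (k, 0)) (hobq (k, 1))
    refine ⟨X, Y, fun hY => hz X ?_, by linear_combination h⟩
    rw [hY] at h
    exact mul_right_cancel₀ (hobq (k, 0)) (by linear_combination h)
  choose s t ht0 hst using hval
  let img : Fin l × Fin 2 → (Fin (m + 1) → F) := fun p =>
    if p.2 = 0 then ob (p.1, 0) else s p.1 • ob (p.1, 0) + t p.1 • ob (p.1, 1)
  have h10 : (1 : Fin 2) ≠ 0 := by decide
  let L : (Fin (m + 1) → F) →ₗ[F] (Fin (m + 1) → F) := b.constr F img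
  have hL : ∀ p, L (b p) = img p := fun p => b.constr_basis F img p
  have hsurj : Function.Surjective L := by
    refine LinearMap.range_eq_top.1 (eq_top_iff.2 ?_)
    rw [← ob.span_eq, Submodule.span_le]
    rintro _ ⟨⟨k, j⟩, rfl⟩
    fin_cases j
    · exact ⟨b (k, 0), by rw [hL]; simp [img]⟩
    · refine ⟨(t k)⁻¹ • (b (k, 1) - s k • b (k, 0)), ?_⟩
      rw [map_smul, map_sub, map_smul, hL, hL]
      simp [img, smul_smul, inv_mul_cancel₀ (ht0 k)]
  let h : (Fin (m + 1) → F) ≃ₗ[F] (Fin (m + 1) → F) :=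
    LinearEquiv.ofBijective L ⟨(LinearMap.injective_iff_surjective).2 hsurj, hsurj⟩
  have hP : ∀ v, (Q.comp (h : (Fin (m + 1) → F) →ₗ[F] _)) v = Q (L v) := fun v => rfl
  have hw0 : ∀ k, Q (L (b (k, 1))) = z * Q (L (b (k, 0))) := fun k => by
    simp only [hL, img, if_neg h10, if_true]
    rw [QuadraticMap.map_add (⇑Q), H4.qf_smul, H4.qf_smul, polar_smul_left, polar_smul_right,
      hobp (k, 0) (k, 1) (by simp)]
    simp only [smul_zero, add_zero, hst]
  have hcross : ∀ k k' j j', k ≠ k' → polar Q (L (b (k, j))) (L (b (k', j'))) = 0 := fun k k' j j' hk => by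
    have e : ∀ a c : Fin 2, polar Q (ob (k, a)) (ob (k', c)) = 0 := fun a c => hobp _ _ (by simp [hk])
    rw [hL, hL]
    fin_cases j <;> fin_cases j' <;>
      simp [img, polar_add_left, polar_add_right, polar_smul_left, polar_smul_right, e]
  have hpol : ∀ a c, polar (Q.comp (h : (Fin (m + 1) → F) →ₗ[F] _)) a c = polar Q (L a) (L c) :=
    fun a c => by simp only [polar, hP, map_add]
  refine good_of_form Q x hz0 h (fun v => ?_) fun u hu => ?_
  · show (Q.comp (h : (Fin (m + 1) → F) →ₗ[F] _)) (T v) = z * (Q.comp (h : (Fin (m + 1) → F) →ₗ[F] _)) v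
    refine scaled_of_basis _ b T z (fun p => ?_) (fun p p' hpp => ?_) v
    · obtain ⟨k, j⟩ := p
      fin_cases j
      · show (Q.comp (h : (Fin (m + 1) → F) →ₗ[F] _)) (T (b (k, 0))) = _
        rw [hT0, hP]; exact hw0 k
      · show (Q.comp (h : (Fin (m + 1) → F) →ₗ[F] _)) (T (b (k, 1))) = z * (Q.comp (h : (Fin (m + 1) → F) →ₗ[F] _)) (b (k, 1))
        rw [hT1, H4.qf_smul, hP, hP, hw0]; ring
    · obtain ⟨k, j⟩ := p
      obtain ⟨k', j'⟩ := p'
      by_cases hk : k = k'
      · subst hk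
        fin_cases j <;> fin_cases j' <;> first | exact absurd rfl hpp | skip
        · show polar _ (T (b (k, 0))) (T (b (k, 1))) = z * polar _ (b (k, 0)) (b (k, 1))
          rw [hT0, hT1, polar_smul_right, smul_eq_mul, polar_comm]
        · show polar _ (T (b (k, 1))) (T (b (k, 0))) = z * polar _ (b (k, 1)) (b (k, 0))
          rw [hT0, hT1, polar_smul_left, smul_eq_mul, polar_comm]
      · have z1 : ∀ a c : Fin 2, polar (Q.comp (h : (Fin (m + 1) → F) →ₗ[F] _)) (b (k, a)) (b (k', c)) = 0 :=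
          fun a c => (hpol _ _).trans (hcross k k' a c hk)
        have hT' : ∀ (k : Fin l) (a : Fin 2), ∃ (r : F) (c : Fin 2), T (b (k, a)) = r • b (k, c) := by
          intro k a
          fin_cases a
          · exact ⟨1, 1, by rw [one_smul]; exact hT0 k⟩
          · exact ⟨z, 0, hT1 k⟩
        obtain ⟨r₁, c₁, h1⟩ := hT' k j
        obtain ⟨r₂, c₂, h2'⟩ := hT' k' j'
        rw [h1, h2', polar_smul_left, polar_smul_right, z1, z1, smul_zero, smul_zero, mul_zero]
  obtain ⟨a, c, hac⟩ := exists_norm_rep h2 hz0 u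
  have hl : 0 < l := by omega
  let k₀ : Fin l := ⟨0, hl⟩
  let e2 : Fin l × Fin 2 ≃ Fin 2 × Fin l := Equiv.prodComm _ _
  let b' := b.reindex e2
  let MT : Matrix (Fin 2 × Fin l) (Fin 2 × Fin l) F := Matrix.blockDiagonal fun _ => !![0, z; 1, 0]
  let MZ : Matrix (Fin 2 × Fin l) (Fin 2 × Fin l) F :=
    Matrix.blockDiagonal fun k => if k = k₀ then !![a, z * c; c, a] else 1
  have hTM : T = Matrix.toLin b' b' MT := b'.ext fun p => by
    obtain ⟨j, k⟩ := p
    rw [Matrix.toLin_self, Fintype.sum_prod_type, Fin.sum_univ_two]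
    simp only [b', e2, Basis.reindex_apply, Equiv.prodComm_symm, Equiv.prodComm_apply, Prod.swap_prod_mk,
      MT, Matrix.blockDiagonal_apply]
    rw [Finset.sum_eq_single k (fun i _ hi => by simp [hi]) (by simp),
      Finset.sum_eq_single k (fun i _ hi => by simp [hi]) (by simp)]
    fin_cases j
    · simp [hT0]
    · simp [hT1]
  refine ⟨Matrix.toLin b' b' MZ, ?_, ?_⟩
  · show _ * T = T * _
    rw [hTM, Module.End.mul_eq_comp, Module.End.mul_eq_comp, ← Matrix.toLin_mul b' b' b',
      ← Matrix.toLin_mul b' b' b']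
    congr 1
    simp only [MT, MZ, ← Matrix.blockDiagonal_mul]
    congr 1
    funext k
    split_ifs
    · ext i j
      fin_cases i <;> fin_cases j <;> simp [Matrix.mul_apply, Fin.sum_univ_two] <;> ring
    · rw [mul_one, one_mul]
  · rw [LinearMap.det_toLin, Matrix.det_blockDiagonal, Finset.prod_eq_single k₀]
    · rw [if_pos rfl, Matrix.det_fin_two_of]; linear_combination hac
    · intro k _ hk; rw [if_neg hk, Matrix.det_one]
    · simp

/-- Every element with scalar square is conjugate into the similarity group. -/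
theorem good_of_sq (h2 : (2 : F) ≠ 0) (hn : 0 < n) (Q : QuadraticForm F (Fin n → F))
    (hQ : (polarBilin Q).Nondegenerate) (x : GL (Fin n) F) {z : F} (hz0 : z ≠ 0)
    (hx : op x ^ 2 = z • 1) : Good ⇑Q x := by
  by_cases hz : ∃ w : F, w ^ 2 = z
  · obtain ⟨w, rfl⟩ := hz
    refine good_of_sq_square h2 hn Q hQ x (w := w) (fun h => hz0 (by rw [h]; simp)) ?_
    rw [hx, sq]
  · exact good_of_sq_nonsquare h2 hn Q hQ x hz0 (fun w hw => hz ⟨w, hw⟩) hx

end Cfsg.Agent.H98.FP
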