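import Cfsg.Agent.H98.FormPreserve.Witness
import Cfsg.Agent.H98.FormPreserve.Two
import Cfsg.Agent.H98.FormPreserve.Index
import Cfsg.Agent.H98.FormPreserve.Exceptional

/-!
# When every element of order `r` preserves a form
-/

set_option autoImplicit false

namespace Cfsg.Agent.H98.FP

open QuadraticMap hiding sq
open Module
open scoped Matrix

theorem card_filter_Ico {n a b : ℕ} (hb : b ≤ n) :
    (Finset.univ.filter fun j : Fin n => a ≤ (j : ℕ) ∧ (j : ℕ) < b).card = b - a := by
  rw [← Nat.card_Ico, ← Finset.card_map Fin.valEmbedding]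
  congr 1
  ext k
  simp only [Finset.mem_map, Finset.mem_filter, Finset.mem_univ, true_and, Fin.valEmbedding_apply,
    Finset.mem_Ico]
  constructor
  · rintro ⟨j, hj, rfl⟩; exact hj
  · intro hk; exact ⟨⟨k, by omega⟩, hk, rfl⟩

/-- Exponents with two classes. -/
theorem two_classes {n k a b : ℕ} (hk0 : 0 < k) (hk : k < n) (hne : k ≠ n - k) (hab : a ≠ b) :
    ∃ (e : Fin n → ℕ) (i₀ i₁ : Fin n), (∀ i, e i = a ∨ e i = b) ∧ (∑ i, e i = k * a + (n - k) * b) ∧
      e i₀ ≠ e i₁ ∧
      (∀ i, (Finset.univ.filter fun j => e j = e i).card = (Finset.univ.filter fun j => e j = e i₀).card →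
        e i = e i₀) ∧
      (∀ i, (Finset.univ.filter fun j => e j = e i).card = (Finset.univ.filter fun j => e j = e i₁).card →
        e i = e i₁) := by
  let e : Fin n → ℕ := fun i => if (i : ℕ) < k then a else b
  have ha : (Finset.univ.filter fun j => e j = a).card = k := by
    rw [show (Finset.univ.filter fun j => e j = a) =
      (Finset.univ.filter fun j : Fin n => 0 ≤ (j : ℕ) ∧ (j : ℕ) < k) from Finset.filter_congr fun j _ => by
        by_cases hj : (j : ℕ) < k <;> simp [e, hj, Ne.symm hab]]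
    rw [card_filter_Ico (by omega), Nat.sub_zero]
  have hb : (Finset.univ.filter fun j => e j = b).card = n - k := by
    rw [show (Finset.univ.filter fun j => e j = b) =
      (Finset.univ.filter fun j : Fin n => k ≤ (j : ℕ) ∧ (j : ℕ) < n) from Finset.filter_congr fun j _ => by
        by_cases hj : (j : ℕ) < k <;> simp [e, hj, hab, Nat.not_le.2, Nat.le_of_not_lt]]
    rw [card_filter_Ico le_rfl]
  have hcase : ∀ i, e i = a ∨ e i = b := fun i => by
    simp only [e]; split_ifs <;> simp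
  refine ⟨e, ⟨0, by omega⟩, ⟨k, hk⟩, hcase, ?_, ?_, fun i hi => ?_, fun i hi => ?_⟩
  · rw [← Finset.sum_fiberwise_of_maps_to (t := {a, b}) (g := e) (fun i _ => by
      rcases hcase i with h | h <;> simp [h]), Finset.sum_pair hab]
    congr 1
    · rw [Finset.sum_congr rfl (fun i hi => (Finset.mem_filter.1 hi).2), Finset.sum_const, ha, smul_eq_mul]
    · rw [Finset.sum_congr rfl (fun i hi => (Finset.mem_filter.1 hi).2), Finset.sum_const, hb, smul_eq_mul]
  · simp [e, hk0, hab]
  · have h0 : e ⟨0, by omega⟩ = a := by simp [e, hk0]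
    rw [h0] at hi ⊢
    rcases hcase i with h | h
    · exact h
    · rw [h, ha, hb] at hi; omega
  · have h1 : e ⟨k, hk⟩ = b := by simp [e]
    rw [h1] at hi ⊢
    rcases hcase i with h | h
    · rw [h, ha, hb] at hi; omega
    · exact h

/-- Exponents with three classes `r - 2, 1, 1, 0, …`. -/
theorem three_classes {n r : ℕ} (hr : 5 ≤ r) (hn : 6 ≤ n) :
    ∃ (e : Fin n → ℕ) (i₀ i₁ : Fin n), (∀ i, e i < r) ∧ (∑ i, e i = r) ∧ e i₀ ≠ e i₁ ∧
      (∀ i, (Finset.univ.filter fun j => e j = e i).card = (Finset.univ.filter fun j => e j = e i₀).card →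
        e i = e i₀) ∧
      (∀ i, (Finset.univ.filter fun j => e j = e i).card = (Finset.univ.filter fun j => e j = e i₁).card →
        e i = e i₁) := by
  let e : Fin n → ℕ := fun i => if (i : ℕ) < 1 then r - 2 else if (i : ℕ) < 3 then 1 else 0
  have hA : (Finset.univ.filter fun j => e j = r - 2).card = 1 := by
    rw [show (Finset.univ.filter fun j => e j = r - 2) =
      (Finset.univ.filter fun j : Fin n => 0 ≤ (j : ℕ) ∧ (j : ℕ) < 1) from Finset.filter_congr fun j _ => by
        simp only [e]; split_ifs <;> constructor <;> intro <;> first | omega | contradiction]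
    rw [card_filter_Ico (by omega)]
  have hB : (Finset.univ.filter fun j => e j = 1).card = 2 := by
    rw [show (Finset.univ.filter fun j => e j = 1) =
      (Finset.univ.filter fun j : Fin n => 1 ≤ (j : ℕ) ∧ (j : ℕ) < 3) from Finset.filter_congr fun j _ => by
        simp only [e]; split_ifs <;> constructor <;> intro <;> first | omega | contradiction]
    rw [card_filter_Ico (by omega)]
  have hC : (Finset.univ.filter fun j => e j = 0).card = n - 3 := by
    rw [show (Finset.univ.filter fun j => e j = 0) =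
      (Finset.univ.filter fun j : Fin n => 3 ≤ (j : ℕ) ∧ (j : ℕ) < n) from Finset.filter_congr fun j _ => by
        simp only [e]; split_ifs <;> constructor <;> intro <;> first | omega | contradiction]
    rw [card_filter_Ico le_rfl]
  have hcase : ∀ i, e i = r - 2 ∨ e i = 1 ∨ e i = 0 := fun i => by
    simp only [e]; split_ifs <;> simp
  refine ⟨e, ⟨0, by omega⟩, ⟨1, by omega⟩, fun i => ?_, ?_, ?_, fun i hi => ?_, fun i hi => ?_⟩
  · rcases hcase i with h | h | h <;> omega
  · rw [← Finset.sum_fiberwise_of_maps_to (t := {r - 2, 1, 0}) (g := e) (fun i _ => by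
      rcases hcase i with h | h | h <;> simp [h]),
      Finset.sum_insert (by simp; omega), Finset.sum_pair one_ne_zero,
      Finset.sum_congr rfl (fun i hi => (Finset.mem_filter.1 hi).2), Finset.sum_const, hA,
      Finset.sum_congr rfl (fun i hi => (Finset.mem_filter.1 hi).2), Finset.sum_const, hB,
      Finset.sum_congr rfl (fun i hi => (Finset.mem_filter.1 hi).2), Finset.sum_const, hC]
    simp only [smul_eq_mul]; omega
  · simp [e]; omega
  · have h0 : e ⟨0, by omega⟩ = r - 2 := by simp [e]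
    rw [h0] at hi ⊢
    rcases hcase i with h | h | h
    · exact h
    · rw [h, hA, hB] at hi; omega
    · rw [h, hA, hC] at hi; omega
  · have h1 : e ⟨1, by omega⟩ = 1 := by simp [e]
    rw [h1] at hi ⊢
    rcases hcase i with h | h | h
    · rw [h, hA, hB] at hi; omega
    · exact h
    · rw [h, hB, hC] at hi; omega

variable {F : Type*} [Field F] [Fintype F] {n : ℕ}

/-- An element of given order among the units. -/
theorem exists_primitive {k : ℕ} (hk : k ∣ Nat.card F - 1) : ∃ u : F, IsPrimitiveRoot u k := by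
  classical
  obtain ⟨g, hg⟩ := IsCyclic.exists_ofOrder_eq_natCard (α := Fˣ)
  rw [Nat.card_units] at hg
  obtain ⟨m, hm⟩ := hk
  have hpos : 0 < Nat.card F - 1 := by
    have := Finite.one_lt_card (α := F)
    omega
  exact ⟨((g ^ m : Fˣ) : F), IsPrimitiveRoot.coe_units_iff.2
    ((IsPrimitiveRoot.orderOf g).pow (by rw [hg]; exact hpos) (by rw [hg, hm, mul_comm]))⟩

variable {r : ℕ} [Fact r.Prime]

/-- All counterexamples for odd `r`. -/
theorem exists_witness {p : ℕ} [Fact p.Prime] [CharP F p] (h2 : (2 : F) ≠ 0) (hn : 3 ≤ n)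
    (hr2 : r ≠ 2) (hgap : ¬ (n = 6 ∧ r = 3)) (Q : QuadraticForm F (Fin n → F))
    (hQ : (polarBilin Q).Nondegenerate)
    (hΩ : r ∣ (Cfsg.Geo.quadSimilarityGroup ⇑Q).relIndex (Cfsg.Geo.specialLinear (Fin n) F))
    (hno : ¬ ((r = 3 ∨ r = 5) ∧ n = r ∧ padicValNat r (Nat.card F - 1) = 1)) :
    ∃ x, IsWitness (⇑Q) r x := by
  have hrp := (Fact.out : r.Prime)
  have hodd : Odd r := hrp.odd_of_ne_two hr2
  by_cases hr : (r : F) = 0
  · exact witness_char h2 hn Q hQ hr
  have hrq : (Fintype.card F : ZMod r) ≠ 0 := by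
    rw [Ne, ZMod.natCast_eq_zero_iff]
    intro h
    obtain ⟨k, -, hk⟩ := FiniteField.card F p
    rw [hk] at h
    refine hr ?_
    rw [(Nat.prime_dvd_prime_iff_eq hrp Fact.out).1 (hrp.dvd_of_dvd_pow h)]
    exact CharP.cast_eq_zero F p
  rw [← Nat.card_eq_fintype_card] at hrq
  set d := orderOf (Nat.card F : ZMod r) with hd
  have hd0 : 0 < d := orderOf_pos_iff.2 (isOfFinOrder_iff_pow_eq_one.2
    ⟨r - 1, by have := hrp.two_le; omega, ZMod.pow_card_sub_one_eq_one hrq⟩)
  by_cases hd2 : 2 ≤ d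
  · rcases dvd_index_cases (by rwa [← Nat.card_eq_fintype_card]) h2 Q hQ hΩ with
      ⟨i, hi, hin, hiq⟩ | ⟨m, hm, hbad⟩
    · rw [← Nat.card_eq_fintype_card] at hiq
      have hdi : d ∣ i := orderOf_dvd_of_pow_eq_one hiq
      exact witness_odd_order (p := p) hr2 hr hd2 (hi.of_dvd_nat hdi)
        ((Nat.le_of_dvd hi.pos hdi).trans hin) (by omega) Q hQ
    · rw [← Nat.card_eq_fintype_card] at hbad
      refine witness_fpf (p := p) hr2 hr hd2 hm (by omega) (orderOf_dvd_of_pow_eq_one ?_) Q hQ hbad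
      rw [hm, mul_comm, pow_mul]
      rcases hbad with ⟨-, h⟩ | ⟨-, h⟩ <;> rw [h]
      · exact neg_one_sq
      · exact one_pow 2
  have hq1 : r ∣ Nat.card F - 1 := by
    have h1 : (Nat.card F : ZMod r) = 1 := orderOf_eq_one_iff.1 (show d = 1 by omega)
    rw [← Nat.cast_one (R := ZMod r), ZMod.natCast_eq_natCast_iff] at h1
    exact (Nat.modEq_iff_dvd' (by have := Finite.one_lt_card (α := F); omega)).1 h1.symm
  obtain ⟨ζ, hζ⟩ := exists_primitive hq1
  have hone : ∀ m, r ∣ m → (1 : F) ^ n * ζ ^ m = 1 := fun m hm => by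
    rw [one_pow, one_mul, hζ.pow_eq_one_iff_dvd]; exact hm
  by_cases hrn : r ∣ n
  swap
  · -- the last exponent makes the determinant one
    set t := (r - (n - 1) % r) % r with ht
    have htlt : t < r := Nat.mod_lt _ hrp.pos
    have hsum : r ∣ (n - 1) * 1 + 1 * t := by
      rw [mul_one, one_mul, Nat.dvd_iff_mod_eq_zero, ht, Nat.add_mod_mod, Nat.add_mod]
      have hlt := Nat.mod_lt (n - 1) hrp.pos
      rcases Nat.eq_zero_or_pos ((n - 1) % r) with h | h
      · rw [h]; simp
      · rw [Nat.mod_eq_of_lt (show r - (n - 1) % r < r by omega),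
          show (n - 1) % r + (r - (n - 1) % r) = r by omega, Nat.mod_self]
    have ht1 : 1 ≠ t := by
      intro h
      rw [← h, mul_one, Nat.sub_add_cancel (by omega : 1 ≤ n)] at hsum
      exact hrn hsum
    obtain ⟨e, i₀, i₁, hc, hs, h01, hu, hu'⟩ :=
      two_classes (n := n) (k := n - 1) (by omega) (by omega) (by omega) ht1
    refine witness_diag Q hQ hodd hζ one_ne_zero e (fun i => ?_) (hone _ ?_) i₀ i₁ h01 hu hu'
    · rcases hc i with h | h <;> rw [h]
      · exact hrp.one_lt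
      · exact htlt
    · rw [hs, show n - (n - 1) = 1 by omega]; exact hsum
  by_cases h5 : 5 ≤ r ∧ 6 ≤ n
  · obtain ⟨e, i₀, i₁, hc, hs, h01, hu, hu'⟩ := three_classes h5.1 h5.2
    exact witness_diag Q hQ hodd hζ one_ne_zero e hc (hone _ (by rw [hs])) i₀ i₁ h01 hu hu'
  by_cases h9 : r = 3 ∧ 9 ≤ n
  · obtain ⟨e, i₀, i₁, hc, hs, h01, hu, hu'⟩ :=
      two_classes (n := n) (k := 3) (a := 1) (b := 0) (by omega) (by omega) (by omega) one_ne_zero
    refine witness_diag Q hQ hodd hζ one_ne_zero e (fun i => ?_) (hone _ ?_) i₀ i₁ h01 hu hu'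
    · rcases hc i with h | h <;> omega
    · rw [hs, h9.1]; simp
  -- the degree is `r`
  have hr35 : r = 3 ∨ r = 5 := by
    have h1 := Nat.le_of_dvd (by omega) hrn
    have h3 := hrp.two_le
    rcases (show r = 3 ∨ r = 4 ∨ r = 5 ∨ 6 ≤ r by omega) with h | h | h | h
    · exact Or.inl h
    · rw [h] at hrp; norm_num at hrp
    · exact Or.inr h
    · exact absurd ⟨by omega, by omega⟩ h5
  have hnr : n = r := by
    obtain ⟨k, hk⟩ := hrn
    rcases hr35 with rfl | rfl <;> omega
  have hv : r ^ 2 ∣ Nat.card F - 1 := by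
    have hN : Nat.card F - 1 ≠ 0 := by have := Finite.one_lt_card (α := F); omega
    rw [padicValNat_dvd_iff_le hN]
    have h1 : padicValNat r (Nat.card F - 1) ≠ 1 := fun h => hno ⟨hr35, hnr, h⟩
    have h0 := one_le_padicValNat_of_dvd hN hq1
    omega
  obtain ⟨u, hu⟩ := exists_primitive hv
  have hur : IsPrimitiveRoot (u ^ r)⁻¹ r :=
    (hu.pow (pow_pos hrp.pos 2) (sq r)).inv
  have hu0 : u ≠ 0 := hu.ne_zero (pow_ne_zero 2 hrp.ne_zero)
  obtain ⟨e, i₀, i₁, hc, hs, h01, hu1, hu'⟩ :=
    two_classes (n := n) (k := 1) (a := 1) (b := 0) (by omega) (by omega) (by omega) one_ne_zero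
  refine witness_diag Q hQ hodd hur hu0 e (fun i => ?_) ?_ i₀ i₁ h01 hu1 hu'
  · have := hrp.two_le
    rcases hc i with h | h <;> omega
  · rw [hs, mul_zero, add_zero, one_mul, pow_one, hnr, mul_inv_cancel₀ (pow_ne_zero _ hu0)]

/-- Every element of order `r` of `PSL` is conjugate into the group of `Q` exactly in the listed cases. -/
theorem all_good_iff {p : ℕ} [Fact p.Prime] [CharP F p] {q : ℕ} (hq : Fintype.card F = q) (hodd : Odd q)
    (hn : 3 ≤ n) (Q : (Fin n → F) → F) (hQ : Cfsg.Geo.IsNondegenerateQuadraticForm Q)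
    (hgap : ¬ (n = 6 ∧ r = 3))
    (hΩ : r ∣ (Cfsg.Geo.quadSimilarityGroup Q).relIndex (Cfsg.Geo.specialLinear (Fin n) F)) :
    (∀ x ∈ Cfsg.Geo.specialLinear (Fin n) F,
      (∃ z : F, ((x ^ r : GL (Fin n) F) : Matrix (Fin n) (Fin n) F) = z • (1 : Matrix (Fin n) (Fin n) F)) →
      (∀ z : F, (x : Matrix (Fin n) (Fin n) F) ≠ z • (1 : Matrix (Fin n) (Fin n) F)) →
      ∃ g ∈ Cfsg.Geo.specialLinear (Fin n) F, g⁻¹ * x * g ∈ Cfsg.Geo.quadSimilarityGroup Q) ↔
    (r = 2 ∨ ((r = 3 ∨ r = 5) ∧ n = r ∧ padicValNat r (q - 1) = 1)) := by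
  subst hq
  have h2 : (2 : F) ≠ 0 := Ring.two_ne_zero (fun h =>
    (Nat.not_even_iff_odd.2 hodd) (FiniteField.even_card_iff_char_two.1 h |> Nat.even_iff.2))
  have hrp := (Fact.out : r.Prime)
  have hlin : ∀ (y : GL (Fin n) F) (z : F),
      (y : Matrix (Fin n) (Fin n) F) = z • (1 : Matrix (Fin n) (Fin n) F) ↔ op y = z • 1 := fun y z => by
    rw [← Matrix.toLin'.injective.eq_iff, map_smul, Matrix.toLin'_one, Module.End.one_eq_id]
  have hpol := qOfFun_nondeg hQ
  rw [← coe_qOfFun hQ] at hΩ ⊢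
  constructor
  · intro H
    by_contra hno
    push Not at hno
    obtain ⟨hr2, hno⟩ := hno
    obtain ⟨x, hxS, ⟨z, hz⟩, hns, hbad⟩ := exists_witness (p := p) h2 hn hr2 hgap (qOfFun Q hQ) hpol hΩ
      (fun h => hno h.1 h.2.1 (by rw [← Nat.card_eq_fintype_card]; exact h.2.2))
    exact hbad (H x hxS ⟨z, (hlin _ _).2 (by rw [op_pow, hz])⟩ fun w hw => hns w ((hlin _ _).1 hw))
  · intro H x hxS hxz _
    obtain ⟨z, hz⟩ := hxz
    rw [hlin, op_pow] at hz
    have hdet := mem_special_iff.1 hxS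
    have hz0 : z ≠ 0 := by
      rintro rfl
      have : Nonempty (Fin n) := ⟨⟨0, by omega⟩⟩
      have h1 := congrArg LinearMap.det hz
      rw [map_pow, hdet, one_pow, zero_smul, LinearMap.det_zero' (Pi.basisFun F (Fin n))] at h1
      · exact one_ne_zero h1
    rcases H with rfl | ⟨hr35, hnr, hv⟩
    · exact good_of_sq h2 (by omega) _ hpol x hz0 hz
    · subst hnr
      have hr : (n : F) ≠ 0 := by
        intro h
        have hd : p ∣ Fintype.card F - 1 := ((Nat.prime_dvd_prime_iff_eq Fact.out hrp).1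
          ((CharP.cast_eq_zero_iff F p n).1 h)) ▸ dvd_of_one_le_padicValNat (by rw [hv])
        obtain ⟨k, -, hk⟩ := FiniteField.card F p
        rw [hk] at hd
        have h1 : p ∣ p ^ (k : ℕ) := dvd_pow_self p k.pos.ne'
        have h3 := Nat.dvd_sub h1 hd
        rw [Nat.sub_sub_self (Nat.one_le_pow _ _ (Fact.out : p.Prime).pos), Nat.dvd_one] at h3
        exact (Fact.out : p.Prime).ne_one h3
      exact good_exceptional h2 hr35 (by rw [Nat.card_eq_fintype_card]; exact hv) hr _ hpol x hdet hz0 hz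

end Cfsg.Agent.H98.FP
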