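import Cfsg.Agent.H98.FormPreserve.UBasic
import Cfsg.Agent.H98.FormPreserve.Index

/-!
# Primes dividing the index of a unitary similarity group
-/

set_option autoImplicit false

namespace Cfsg.Agent.H98.FP

open Module
open scoped Matrix

theorem relIndex_dvd_index_of_normal_right {G : Type*} [Group G] [Finite G] (U S : Subgroup G) [S.Normal] :
    U.relIndex S ∣ U.index := by
  have h1 := Subgroup.relIndex_mul_index (inf_le_right : U ⊓ S ≤ S)
  have h2 := Subgroup.relIndex_mul_index (inf_le_left : U ⊓ S ≤ U)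
  rw [Subgroup.inf_relIndex_right] at h1
  rw [Subgroup.inf_relIndex_left] at h2
  obtain ⟨k, hk⟩ := Subgroup.relIndex_dvd_index_of_normal S U
  refine ⟨k, mul_left_cancel₀ (Subgroup.index_ne_zero_of_finite (H := S.subgroupOf U)) ?_⟩
  show S.relIndex U * U.index = S.relIndex U * (U.relIndex S * k)
  rw [h2, ← h1, hk]; ring

variable {F : Type*} [Field F] [Fintype F] {n q₀ : ℕ} (hF : Fintype.card F = q₀ ^ 2)
  {f : (Fin n → F) → (Fin n → F) → F} (hf : Cfsg.Geo.IsUnitaryFormPow q₀ f)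

include hF hf in
/-- The index of the similarities divides the index of the standard unitary group. -/
theorem relIndex_mul_card_GU_dvd :
    (Cfsg.Geo.similarityGroup f).relIndex (Cfsg.Geo.specialLinear (Fin n) F) * Nat.card (Cfsg.GU n F q₀) ∣
      Nat.card (GL (Fin n) F) := by
  classical
  obtain ⟨e, he⟩ := exists_isometry hF (isHerm_herm hF hf) (H3.isHerm_hermB hF n)
    (Module.finrank_fin_fun F) (Module.finrank_fin_fun F)
  obtain ⟨P, hP⟩ := exists_gl_of_op (e : End F (Fin n → F)) (LinearEquiv.isUnit_det' e).ne_zero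
  let U := (Cfsg.GU n F q₀).map (MulAut.conj P⁻¹).toMonoidHom
  have hU : U ≤ Cfsg.Geo.similarityGroup f := by
    rintro _ ⟨g, hg, rfl⟩
    refine ⟨1, fun u v => ?_⟩
    have hk : ∀ w, e (((MulAut.conj P⁻¹).toMonoidHom g : GL (Fin n) F).1 *ᵥ w) = (g : Matrix _ _ F) *ᵥ e w := by
      intro w
      have h1 : ∀ w, e w = op P w := fun w => by rw [hP]; rfl
      rw [h1, h1]
      show op P (op (P⁻¹ * g * P⁻¹⁻¹) w) = op g (op P w)
      rw [← Module.End.mul_apply, ← op_mul, ← Module.End.mul_apply, ← op_mul, inv_inv,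
        ← mul_assoc, ← mul_assoc, mul_inv_cancel, one_mul]
    rw [Units.val_one, one_mul, ← herm_apply hF hf, ← herm_apply hF hf, ← he, ← he, hk, hk,
      H3.hermB_apply, H3.hermB_apply]
    exact hg _ _
  have hcard : Nat.card U = Nat.card (Cfsg.GU n F q₀) :=
    Subgroup.card_map_of_injective (MulAut.conj P⁻¹).injective
  haveI : (Cfsg.Geo.specialLinear (Fin n) F).Normal := MonoidHom.normal_ker _
  rw [← hcard, ← U.index_mul_card]
  exact Nat.mul_dvd_mul_right ((Subgroup.relIndex_dvd_of_le_left _ hU).trans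
    (relIndex_dvd_index_of_normal_right U _)) _

include hF in
/-- `|GU_n(q₀)|` as an integer. -/
theorem card_GU_int :
    (Nat.card (Cfsg.GU n F q₀) : ℤ) = (q₀ : ℤ) ^ (n * (n - 1) / 2) *
      ∏ i ∈ Finset.range n, ((q₀ : ℤ) ^ (i + 1) - (-1) ^ (i + 1)) := by
  have h2 := H3.two_le_q hF
  rw [H3.card_GU hF, Nat.cast_mul, Nat.cast_pow, Nat.cast_prod]
  congr 1
  refine Finset.prod_congr rfl fun i _ => ?_
  by_cases hi : Even i
  · rw [if_pos hi, Odd.neg_one_pow hi.add_one]; push_cast; ring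
  · rw [if_neg hi, Even.neg_one_pow (Nat.not_even_iff_odd.1 hi).add_one,
      Nat.cast_sub (Nat.one_le_pow _ _ (by omega))]
    push_cast; ring

include hF hf in
/-- The congruence attached to a prime dividing the index. -/
theorem dvd_uindex_cases {r : ℕ} [Fact r.Prime] (hrq : (q₀ : ZMod r) ≠ 0)
    (hΩ : r ∣ (Cfsg.Geo.similarityGroup f).relIndex (Cfsg.Geo.specialLinear (Fin n) F)) :
    ∃ i, 1 ≤ i ∧ i ≤ n ∧ (q₀ : ZMod r) ^ i = -(-1) ^ i := by
  obtain ⟨a, hGL⟩ := card_GL_int (F := F) (n := n)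
  have hdvd := Int.natCast_dvd_natCast.2 (relIndex_mul_card_GU_dvd hF hf)
  rw [Nat.cast_mul, card_GU_int hF, hGL] at hdvd
  set b := n * (n - 1) / 2
  set I : ℤ := (((Cfsg.Geo.similarityGroup f).relIndex (Cfsg.Geo.specialLinear (Fin n) F) : ℕ) : ℤ)
  set A := ∏ i ∈ Finset.range n, ((q₀ : ℤ) ^ (i + 1) - (-1) ^ (i + 1))
  set B := ∏ i ∈ Finset.range n, ((q₀ : ℤ) ^ (i + 1) + (-1) ^ (i + 1))
  have hprod : ∏ i ∈ Finset.range n, ((Fintype.card F : ℤ) ^ (i + 1) - 1) = A * B := by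
    rw [← Finset.prod_mul_distrib]
    refine Finset.prod_congr rfl fun i _ => ?_
    have h1 : ((-1 : ℤ) ^ (i + 1)) ^ 2 = 1 := by rw [← pow_mul, Even.neg_one_pow (by simp)]
    rw [hF]
    push_cast
    rw [← pow_mul, mul_comm 2, pow_mul]
    linear_combination h1
  rw [hprod] at hdvd
  have h2 := H3.two_le_q hF
  have hA : A ≠ 0 := Finset.prod_ne_zero_iff.2 fun i _ => by
    have h3 : (2 : ℤ) ≤ (q₀ : ℤ) ^ (i + 1) :=
      le_trans (by exact_mod_cast h2) (le_self_pow₀ (by exact_mod_cast (show 1 ≤ q₀ by omega)) (by omega))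
    rcases neg_one_pow_eq_or ℤ (i + 1) with h | h <;> rw [h] <;> omega
  have h3 : I * (q₀ : ℤ) ^ b * A ∣ (Fintype.card F : ℤ) ^ a * B * A := by
    convert hdvd using 1 <;> ring
  have hrp : Prime (r : ℤ) := Nat.prime_iff_prime_int.1 Fact.out
  have h4 := (dvd_mul_of_dvd_left (Int.natCast_dvd_natCast.2 hΩ) _).trans ((mul_dvd_mul_iff_right hA).1 h3)
  obtain ⟨i, hi, hri⟩ := (hrp.dvd_finsetProd_iff _).1 ((hrp.dvd_or_dvd h4).resolve_left fun h => hrq (by
    have h5 := hrp.dvd_of_dvd_pow h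
    rw [hF, Nat.cast_pow] at h5
    rw [← Int.cast_natCast]
    exact (ZMod.intCast_zmod_eq_zero_iff_dvd _ _).2 (hrp.dvd_of_dvd_pow h5)))
  rw [Finset.mem_range] at hi
  refine ⟨i + 1, by omega, by omega, ?_⟩
  have h := (ZMod.intCast_zmod_eq_zero_iff_dvd _ _).2 hri
  push_cast at h
  exact eq_neg_of_add_eq_zero_left h

end Cfsg.Agent.H98.FP
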