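import Cfsg.Agent.H98.FormPreserve.UTwo
import Cfsg.Agent.H98.FormPreserve.Main

/-!
# When every element of order `r` preserves a Hermitian form
-/

set_option autoImplicit false

namespace Cfsg.Agent.H98.FP

open Module
open scoped Matrix

variable {F : Type*} [Field F] [Fintype F] {n q₀ : ℕ} {r : ℕ} [Fact r.Prime]

/-- Elements in dimension `r ∈ {3, 5}` with `(q₀ - 1)_r = r` preserve a Hermitian form. -/
theorem goodU_exceptional (hr35 : r = 3 ∨ r = 5) (hF : Fintype.card F = q₀ ^ 2)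
    {f : (Fin r → F) → (Fin r → F) → F} (hf : Cfsg.Geo.IsUnitaryFormPow q₀ f)
    (hv : padicValNat r (Nat.card F - 1) = 1) (hq₀ : r ∣ q₀ - 1) (hr : (r : F) ≠ 0)
    (x : GL (Fin r) F) (hdet : LinearMap.det (op x) = 1) {z : F}
    (hz0 : z ≠ 0) (hx : op x ^ r = z • 1) : GoodU f x := by
  classical
  have hrp := (Fact.out : r.Prime)
  haveI : NeZero r := ⟨hrp.ne_zero⟩
  have hodd : Odd r := by rcases hr35 with rfl | rfl <;> decide
  -- the scalar is one
  obtain ⟨w, hw⟩ : ∃ w : F, w ^ r = z := by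
    by_contra h
    push Not at h
    obtain ⟨l, hl, hd⟩ := H97.twisted_det hz0 h (op x) hx
    rw [Module.finrank_fin_fun] at hl
    have hl1 : l = 1 := Nat.eq_of_mul_eq_mul_right hrp.pos (by rw [one_mul]; exact hl.symm)
    rw [hdet, hl1, pow_one, Even.neg_one_pow (Nat.Odd.sub_odd hodd odd_one), one_mul] at hd
    exact h 1 (by rw [one_pow, hd])
  have hq1 : r ∣ Nat.card F - 1 := dvd_of_one_le_padicValNat (by rw [hv])
  have hNpos : Nat.card F - 1 ≠ 0 := by
    have := Finite.one_lt_card (α := F)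
    omega
  have hz1 : z = 1 := by
    have hw0 : w ≠ 0 := fun h => hz0 (by rw [← hw, h, zero_pow hrp.ne_zero])
    have h1 : (w ^ r) ^ r = 1 := by
      have h3 := congrArg LinearMap.det hx
      rw [map_pow, hdet, one_pow, LinearMap.det_smul, map_one, mul_one, Module.finrank_fin_fun] at h3
      rw [hw]; exact h3.symm
    let u := Units.mk0 w hw0
    have hu : orderOf u ∣ r ^ 2 := orderOf_dvd_of_pow_eq_one (Units.ext (by
      rw [Units.val_pow_eq_pow_val, Units.val_mk0, sq, pow_mul, h1, Units.val_one]))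
    have hu' : orderOf u ∣ Nat.card F - 1 := by
      rw [← Nat.card_units]; exact orderOf_dvd_natCard u
    obtain ⟨i, hi, hiu⟩ := (Nat.dvd_prime_pow hrp).1 hu
    have hi1 : i ≤ 1 := by
      rw [hiu, padicValNat_dvd_iff_le hNpos, hv] at hu'
      exact hu'
    have hur : u ^ r = 1 := by
      refine orderOf_dvd_iff_pow_eq_one.1 ?_
      rw [hiu]
      exact (pow_dvd_pow r hi1).trans (by rw [pow_one])
    rw [← hw]
    simpa [u] using congrArg Units.val hur
  subst hz1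
  rw [one_smul] at hx
  obtain ⟨ζ, hζ⟩ : ∃ ζ : F, IsPrimitiveRoot ζ r := by
    obtain ⟨g, hg⟩ := exists_prime_orderOf_dvd_card' (G := Fˣ) r (by rwa [Nat.card_units])
    exact ⟨g, IsPrimitiveRoot.coe_units_iff.2 (IsPrimitiveRoot.iff_orderOf.2 hg)⟩
  obtain ⟨b, e, he, hb⟩ := H97.exists_eigenbasis (n := r) hr hζ (Module.finrank_fin_fun F) (op x) hx
  have hsum : r ∣ ∑ i, e i := by
    have h := H97.det_monomial b (op x) 1 _ hb
    rw [hdet, Equiv.Perm.sign_one] at h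
    simp only [Units.val_one, Int.cast_one, one_mul, Finset.prod_pow_eq_pow_sum] at h
    exact hζ.dvd_of_pow_eq_one _ h.symm
  let e' : Fin r → Fin r := fun i => ⟨e i, he i⟩
  obtain ⟨π, s, hπ, hs⟩ := exists_symm hr35 e' (by
    apply Fin.ext
    have : ∀ t : Finset (Fin r), ((∑ i ∈ t, e' i : Fin r) : ℕ) = (∑ i ∈ t, e i) % r := by
      intro t
      induction t using Finset.induction_on with
      | empty => simp
      | insert a t ha ih =>
        rw [Finset.sum_insert ha, Finset.sum_insert ha, Fin.val_add, ih, Nat.add_mod_mod]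
    rw [this, Nat.mod_eq_zero_of_dvd hsum]
    rfl)
  have hc : ∀ i, ζ ^ e (π i) * ζ ^ e i = ζ ^ (s : ℕ) := fun i => by
    rw [← hs i, Fin.val_add, ← pow_add]
    exact pow_eq_pow_mod _ hζ.pow_eq_one
  have hζq : ζ ^ q₀ = ζ := by
    obtain ⟨j, hj⟩ := hq₀
    have h2 := H3.two_le_q hF
    rw [show q₀ = r * j + 1 by omega, pow_succ, pow_mul, hζ.pow_eq_one, one_pow, one_mul]
  refine goodU_of_eigen hF hf x b (fun i => ζ ^ e i) hb hπ
    (pow_ne_zero (s : ℕ) (hζ.ne_zero hrp.ne_zero)) fun i => ?_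
  rw [← hc i, ← pow_mul, mul_comm (e (π i)), pow_mul, hζq]

/-- All counterexamples for odd `r`. -/
theorem exists_witnessU (hF : Fintype.card F = q₀ ^ 2) {f : (Fin n → F) → (Fin n → F) → F}
    (hf : Cfsg.Geo.IsUnitaryFormPow q₀ f) {p : ℕ} [Fact p.Prime] [CharP F p] (hn : 3 ≤ n)
    (hr2 : r ≠ 2) (hrp' : r ≠ p) (hgap : ¬ (n = 6 ∧ r = 3))
    (hΩ : r ∣ (Cfsg.Geo.similarityGroup f).relIndex (Cfsg.Geo.specialLinear (Fin n) F))
    (hno : ¬ ((r = 3 ∨ r = 5) ∧ n = r ∧ padicValNat r (q₀ - 1) = 1)) :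
    ∃ x, IsWitnessU f r x := by
  have hrp := (Fact.out : r.Prime)
  have hodd : Odd r := hrp.odd_of_ne_two hr2
  have hr : (r : F) ≠ 0 := by
    rw [Ne, CharP.cast_eq_zero_iff F p]
    exact fun h => hrp' ((Nat.prime_dvd_prime_iff_eq Fact.out hrp).1 h).symm
  have hrq : (q₀ : ZMod r) ≠ 0 := by
    rw [Ne, ZMod.natCast_eq_zero_iff]
    intro h
    obtain ⟨k, -, hk⟩ := FiniteField.card F p
    rw [hF] at hk
    exact hrp' ((Nat.prime_dvd_prime_iff_eq hrp Fact.out).1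
      (hrp.dvd_of_dvd_pow (hk ▸ dvd_pow h two_ne_zero)))
  obtain ⟨i, hi0, hin, hiq⟩ := dvd_uindex_cases hF hf hrq hΩ
  have hcard : (Nat.card F : ZMod r) = (q₀ : ZMod r) ^ 2 := by
    rw [Nat.card_eq_fintype_card, hF, Nat.cast_pow]
  have hqi : (Nat.card F : ZMod r) ^ i = 1 := by
    rw [hcard, ← pow_mul, mul_comm, pow_mul, hiq, neg_sq, ← pow_mul, mul_comm, pow_mul, neg_one_sq, one_pow]
  set d := orderOf (Nat.card F : ZMod r) with hd
  have hdi : d ∣ i := orderOf_dvd_of_pow_eq_one hqi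
  have hne : (1 : ZMod r) ≠ -1 := fun h => hr2 (by
    have h2 : ((2 : ℕ) : ZMod r) = 0 := by push_cast; linear_combination h
    exact (Nat.prime_dvd_prime_iff_eq hrp Nat.prime_two).1 ((ZMod.natCast_eq_zero_iff _ _).1 h2))
  have hbad : (q₀ : ZMod r) ^ d ≠ (-1) ^ d := by
    intro h
    obtain ⟨k, hk⟩ := hdi
    rw [hk, pow_mul, h, ← pow_mul] at hiq
    rcases neg_one_pow_eq_or (ZMod r) (d * k) with h1 | h1 <;> rw [h1] at hiq
    · exact hne hiq
    · rw [neg_neg] at hiq; exact hne hiq.symm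
  by_cases hd2 : 2 ≤ d
  · exact witnessU_piece hF hf hr hd2 ((Nat.le_of_dvd (by omega) hdi).trans hin) hrq hbad (by omega)
  have hd1 : d = 1 := by
    have : d ≠ 0 := fun h => by rw [h, zero_dvd_iff] at hdi; omega
    omega
  have hq01 : r ∣ q₀ - 1 := by
    rw [hd1, pow_one, pow_one] at hbad
    have h2 : (q₀ : ZMod r) ^ 2 = 1 := by rw [← hcard]; exact orderOf_eq_one_iff.1 hd1
    have h1 : (q₀ : ZMod r) = 1 := (sq_eq_one_iff.1 h2).resolve_right hbad
    rw [← Nat.cast_one (R := ZMod r), ZMod.natCast_eq_natCast_iff] at h1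
    exact (Nat.modEq_iff_dvd' (by have := H3.two_le_q hF; omega)).1 h1.symm
  have hfix : ∀ {a : F}, a ^ r = 1 → a ^ q₀ = a := fun {a} ha => by
    obtain ⟨j, hj⟩ := hq01
    have := H3.two_le_q hF
    rw [show q₀ = r * j + 1 by omega, pow_succ, pow_mul, ha, one_pow, one_mul]
  have hq1 : r ∣ Nat.card F - 1 := by
    rw [Nat.card_eq_fintype_card, hF, show q₀ ^ 2 - 1 = (q₀ + 1) * (q₀ - 1) from Nat.sq_sub_sq q₀ 1]
    exact dvd_mul_of_dvd_right hq01 _
  obtain ⟨ζ, hζ⟩ := exists_primitive hq1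
  have hone : ∀ m, r ∣ m → (1 : F) ^ n * ζ ^ m = 1 := fun m hm => by
    rw [one_pow, one_mul, hζ.pow_eq_one_iff_dvd]; exact hm
  by_cases hrn : r ∣ n
  swap
  · -- the last exponent makes the determinant one
    set t := (r - (n - 1) % r) % r with ht
    have htlt : t < r := Nat.mod_lt _ hrp.pos
    have hsum : r ∣ (n - 1) * 1 + 1 * t := by
      rw [mul_one, one_mul, Nat.dvd_iff_mod_eq_zero, ht, Nat.add_mod_mod, Nat.add_mod]
      have hlt := Nat.mod_lt (n - 1) hrp.pos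
      rcases Nat.eq_zero_or_pos ((n - 1) % r) with h | h
      · rw [h]; simp
      · rw [Nat.mod_eq_of_lt (show r - (n - 1) % r < r by omega),
          show (n - 1) % r + (r - (n - 1) % r) = r by omega, Nat.mod_self]
    have ht1 : 1 ≠ t := by
      intro h
      rw [← h, mul_one, Nat.sub_add_cancel (by omega : 1 ≤ n)] at hsum
      exact hrn hsum
    obtain ⟨e, i₀, i₁, hc, hs, h01, hu, hu'⟩ :=
      two_classes (n := n) (k := n - 1) (by omega) (by omega) (by omega) ht1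
    refine witnessU_diag hF hf hodd hζ (hfix hζ.pow_eq_one) one_ne_zero e (fun i => ?_) (hone _ ?_) i₀ i₁ h01 hu hu'
    · rcases hc i with h | h <;> rw [h]
      · exact hrp.one_lt
      · exact htlt
    · rw [hs, show n - (n - 1) = 1 by omega]; exact hsum
  by_cases h5 : 5 ≤ r ∧ 6 ≤ n
  · obtain ⟨e, i₀, i₁, hc, hs, h01, hu, hu'⟩ := three_classes h5.1 h5.2
    exact witnessU_diag hF hf hodd hζ (hfix hζ.pow_eq_one) one_ne_zero e hc (hone _ (by rw [hs])) i₀ i₁ h01 hu hu'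
  by_cases h9 : r = 3 ∧ 9 ≤ n
  · obtain ⟨e, i₀, i₁, hc, hs, h01, hu, hu'⟩ :=
      two_classes (n := n) (k := 3) (a := 1) (b := 0) (by omega) (by omega) (by omega) one_ne_zero
    refine witnessU_diag hF hf hodd hζ (hfix hζ.pow_eq_one) one_ne_zero e (fun i => ?_) (hone _ ?_) i₀ i₁ h01 hu hu'
    · rcases hc i with h | h <;> omega
    · rw [hs, h9.1]; simp
  -- the degree is `r`
  have hr35 : r = 3 ∨ r = 5 := by
    have h1 := Nat.le_of_dvd (by omega) hrn
    have h3 := hrp.two_le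
    rcases (show r = 3 ∨ r = 4 ∨ r = 5 ∨ 6 ≤ r by omega) with h | h | h | h
    · exact Or.inl h
    · rw [h] at hrp; norm_num at hrp
    · exact Or.inr h
    · exact absurd ⟨by omega, by omega⟩ h5
  have hnr : n = r := by
    obtain ⟨k, hk⟩ := hrn
    rcases hr35 with rfl | rfl <;> omega
  have hv : r ^ 2 ∣ Nat.card F - 1 := by
    have hN : Nat.card F - 1 ≠ 0 := by have := Finite.one_lt_card (α := F); omega
    rw [padicValNat_dvd_iff_le hN]
    have h1 : padicValNat r (q₀ - 1) ≠ 1 := fun h => hno ⟨hr35, hnr, h⟩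
    have h2 := H3.two_le_q hF
    have h0 := one_le_padicValNat_of_dvd (show q₀ - 1 ≠ 0 by omega) hq01
    rw [Nat.card_eq_fintype_card, hF, show q₀ ^ 2 - 1 = (q₀ + 1) * (q₀ - 1) from Nat.sq_sub_sq q₀ 1,
      padicValNat.mul (by omega) (by omega)]
    omega
  obtain ⟨u, hu⟩ := exists_primitive hv
  have hur : IsPrimitiveRoot (u ^ r)⁻¹ r :=
    (hu.pow (pow_pos hrp.pos 2) (sq r)).inv
  have hu0 : u ≠ 0 := hu.ne_zero (pow_ne_zero 2 hrp.ne_zero)
  obtain ⟨e, i₀, i₁, hc, hs, h01, hu1, hu'⟩ :=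
    two_classes (n := n) (k := 1) (a := 1) (b := 0) (by omega) (by omega) (by omega) one_ne_zero
  refine witnessU_diag hF hf hodd hur (hfix hur.pow_eq_one) hu0 e (fun i => ?_) ?_ i₀ i₁ h01 hu1 hu'
  · have := hrp.two_le
    rcases hc i with h | h <;> omega
  · rw [hs, mul_zero, add_zero, one_mul, pow_one, hnr, mul_inv_cancel₀ (pow_ne_zero _ hu0)]

/-- Every element of order `r` of `PSL` is conjugate into the group of `f` exactly in the listed cases. -/
theorem all_goodU_iff {p : ℕ} [Fact p.Prime] [CharP F p] {q : ℕ} (hq : Fintype.card F = q) (hq₀ : q = q₀ ^ 2)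
    (hn : 3 ≤ n) (f : (Fin n → F) → (Fin n → F) → F) (hf : Cfsg.Geo.IsUnitaryFormPow q₀ f)
    (hrp' : r = 2 ∨ r ≠ p) (hgap : ¬ (n = 6 ∧ r = 3))
    (hΩ : r ∣ (Cfsg.Geo.similarityGroup f).relIndex (Cfsg.Geo.specialLinear (Fin n) F)) :
    (∀ x ∈ Cfsg.Geo.specialLinear (Fin n) F,
      (∃ z : F, ((x ^ r : GL (Fin n) F) : Matrix (Fin n) (Fin n) F) = z • (1 : Matrix (Fin n) (Fin n) F)) →
      (∀ z : F, (x : Matrix (Fin n) (Fin n) F) ≠ z • (1 : Matrix (Fin n) (Fin n) F)) →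
      ∃ g ∈ Cfsg.Geo.specialLinear (Fin n) F, g⁻¹ * x * g ∈ Cfsg.Geo.similarityGroup f) ↔
    ((r = 2 ∧ (p = 2 ∨ padicValNat 2 n ≤ padicValNat 2 (q - 1))) ∨
      ((r = 3 ∨ r = 5) ∧ n = r ∧ padicValNat r (q₀ - 1) = 1)) := by
  subst hq
  have hlin : ∀ (y : GL (Fin n) F) (z : F),
      (y : Matrix (Fin n) (Fin n) F) = z • (1 : Matrix (Fin n) (Fin n) F) ↔ op y = z • 1 := fun y z => by
    rw [← Matrix.toLin'.injective.eq_iff, map_smul, Matrix.toLin'_one, Module.End.one_eq_id]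
  have hrp := (Fact.out : r.Prime)
  by_cases hr2 : r = 2
  · subst hr2
    have h := all_goodU_two_iff hq₀ hf (show 0 < n by omega) (p := p)
    constructor
    · intro H
      exact Or.inl ⟨rfl, h.1 fun x hxS ⟨z, hz⟩ hns => H x hxS ⟨z, (hlin _ _).2 (by rw [op_pow, hz])⟩
        fun w hw => hns w ((hlin _ _).1 hw)⟩
    · intro H x hxS ⟨z, hz⟩ hns
      rcases H with ⟨-, h2⟩ | ⟨h35, -⟩
      · exact h.2 h2 x hxS ⟨z, by rw [← op_pow, ← hlin]; exact hz⟩ fun w hw => hns w ((hlin _ _).2 hw)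
      · omega
  constructor
  · intro H
    refine Or.inr ?_
    by_contra hno
    obtain ⟨x, hxS, ⟨z, hz⟩, hns, hbad⟩ :=
      exists_witnessU (p := p) hq₀ hf hn hr2 (hrp'.resolve_left hr2) hgap hΩ hno
    exact hbad (H x hxS ⟨z, (hlin _ _).2 (by rw [op_pow, hz])⟩ fun w hw => hns w ((hlin _ _).1 hw))
  · intro H x hxS ⟨z, hz⟩ _
    rw [hlin, op_pow] at hz
    obtain ⟨hr35, hnr, hv⟩ := H.resolve_left (fun h => hr2 h.1)
    subst hnr
    have hdet := mem_special_iff.1 hxS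
    have hz0 : z ≠ 0 := by
      rintro rfl
      have h1 := congrArg LinearMap.det hz
      have : Nonempty (Fin n) := ⟨⟨0, by omega⟩⟩
      rw [map_pow, hdet, one_pow, zero_smul, LinearMap.det_zero' (Pi.basisFun F (Fin n))] at h1
      exact one_ne_zero h1
    have hq01 : n ∣ q₀ - 1 := dvd_of_one_le_padicValNat (by rw [hv])
    have h2 := H3.two_le_q hq₀
    have hr : (n : F) ≠ 0 := by
      rw [Ne, CharP.cast_eq_zero_iff F p]
      exact fun h => hrp'.resolve_left hr2 ((Nat.prime_dvd_prime_iff_eq Fact.out hrp).1 h).symm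
    refine goodU_exceptional hr35 hq₀ hf ?_ hq01 hr x hdet hz0 hz
    rw [Nat.card_eq_fintype_card, hq₀, show q₀ ^ 2 - 1 = (q₀ + 1) * (q₀ - 1) from Nat.sq_sub_sq q₀ 1,
      padicValNat.mul (by omega) (by omega), hv, padicValNat.eq_zero_of_not_dvd]
    intro h
    have h3 := Nat.dvd_sub h hq01
    rw [show q₀ + 1 - (q₀ - 1) = 2 by omega] at h3
    exact hr2 ((Nat.prime_dvd_prime_iff_eq hrp Nat.prime_two).1 h3)

end Cfsg.Agent.H98.FP
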