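import Cfsg.Agent.H98.FormPreserve.UWitness
import Cfsg.Agent.H98.FormPreserve.Main
import Cfsg.Agent.H97.SingerNormalizer
import Cfsg.Agent.H97.Twisted

/-!
# Involutions modulo scalars and Hermitian forms
-/

set_option autoImplicit false

namespace Cfsg.Agent.H98.FP

open Module
open scoped Matrix

variable {F : Type*} [Field F] [Fintype F] {n q₀ : ℕ} (hF : Fintype.card F = q₀ ^ 2)
  {f : (Fin n → F) → (Fin n → F) → F} (hf : Cfsg.Geo.IsUnitaryFormPow q₀ f)

include hF hf in
/-- Square case in odd characteristic. -/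
theorem goodU_sq_square (h2 : (2 : F) ≠ 0) (hn : 0 < n) (x : GL (Fin n) F) {w : F} (hw : w ≠ 0)
    (hx : op x ^ 2 = (w * w) • 1) : GoodU f x := by
  have hζ : IsPrimitiveRoot (-1 : F) 2 := IsPrimitiveRoot.iff_orderOf.2
    (orderOf_eq_prime (by ring) (fun h => h2 (by linear_combination -h)))
  have hS : (w⁻¹ • op x) ^ 2 = 1 := by
    rw [smul_pow, hx, smul_smul, ← sq, ← mul_pow, inv_mul_cancel₀ hw, one_pow, one_smul]
  obtain ⟨b, e, -, hb⟩ := H97.exists_eigenbasis (n := n) (r := 2) (by exact_mod_cast h2) hζ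
    (Module.finrank_fin_fun F) _ hS
  haveI : Nonempty (Fin n) := ⟨⟨0, hn⟩⟩
  refine goodU_of_eigen hF hf x b (fun i => w * (-1) ^ e i) (fun i => ?_) (π := id) (fun i => rfl)
    (c := w ^ q₀ * w) (mul_ne_zero (pow_ne_zero _ hw) hw) fun i => ?_
  · rw [mul_smul, ← hb i, LinearMap.smul_apply, smul_smul, mul_inv_cancel₀ hw, one_smul]
  · show (w * (-1 : F) ^ e i) ^ q₀ * (w * (-1) ^ e i) = w ^ q₀ * w
    have hσ : ((-1 : F) ^ e i) ^ q₀ = (-1) ^ e i := by
      rw [← H3.conjQ_apply hF, map_pow, map_neg, map_one]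
    rw [mul_pow, hσ]
    have h1 : ((-1 : F) ^ e i) * (-1) ^ e i = 1 := by rw [← pow_add, Even.neg_one_pow ⟨e i, rfl⟩]
    linear_combination (w ^ q₀ * w) * h1

omit [Fintype F] in
/-- A basis adapted to an operator of square zero. -/
theorem exists_sq_zero_basis {V : Type*} [AddCommGroup V] [Module F V] [FiniteDimensional F V]
    (N : End F V) (hN : ∀ v, N (N v) = 0) :
    ∃ (m l : ℕ) (b : Basis ((Fin m ⊕ Fin m) ⊕ Fin l) F V), (∀ k, N (b (.inl (.inl k))) = b (.inl (.inr k))) ∧
      (∀ k, N (b (.inl (.inr k))) = 0) ∧ ∀ j, N (b (.inr j)) = 0 := by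
  set K := LinearMap.ker N
  set R := LinearMap.range N
  have hRK : R ≤ K := by rintro _ ⟨v, rfl⟩; exact hN v
  obtain ⟨C, hC⟩ := Submodule.exists_isCompl K
  obtain ⟨D', hD⟩ := Submodule.exists_isCompl R
  set D := K ⊓ D'
  let bC := Module.finBasis F C
  let bD := Module.finBasis F D
  let fam : (Fin (finrank F C) ⊕ Fin (finrank F C)) ⊕ Fin (finrank F D) → V :=
    Sum.elim (Sum.elim (fun k => (bC k : V)) fun k => N (bC k : V)) fun j => (bD j : V)
  set S := Submodule.span F (Set.range fam) with hSdef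
  have hCS : C ≤ S := fun v hv => by
    have h : (⟨v, hv⟩ : C) ∈ Submodule.span F (Set.range bC) := by rw [bC.span_eq]; trivial
    have h' := Submodule.mem_map_of_mem (f := C.subtype) h
    rw [Submodule.map_span, ← Set.range_comp] at h'
    exact Submodule.span_mono (by rintro _ ⟨k, rfl⟩; exact ⟨.inl (.inl k), rfl⟩) h'
  have hDS : D ≤ S := fun v hv => by
    have h : (⟨v, hv⟩ : D) ∈ Submodule.span F (Set.range bD) := by rw [bD.span_eq]; trivial
    have h' := Submodule.mem_map_of_mem (f := D.subtype) h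
    rw [Submodule.map_span, ← Set.range_comp] at h'
    exact Submodule.span_mono (by rintro _ ⟨k, rfl⟩; exact ⟨.inr k, rfl⟩) h'
  have hRS : R ≤ S := by
    rintro _ ⟨v, rfl⟩
    obtain ⟨k, hk, c, hc, rfl⟩ := Submodule.mem_sup.1 (hC.sup_eq_top ▸ Submodule.mem_top : v ∈ K ⊔ C)
    rw [map_add, LinearMap.mem_ker.1 hk, zero_add]
    have h : (⟨c, hc⟩ : C) ∈ Submodule.span F (Set.range bC) := by rw [bC.span_eq]; trivial
    have h' := Submodule.mem_map_of_mem (f := N.comp C.subtype) h
    rw [Submodule.map_span, ← Set.range_comp] at h'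
    exact Submodule.span_mono (by rintro _ ⟨k, rfl⟩; exact ⟨.inl (.inr k), rfl⟩) h'
  have hK : R ⊔ D = K := by
    rw [show D = K ⊓ D' from rfl, inf_comm, ← sup_inf_assoc_of_le D' hRK, hD.sup_eq_top, top_inf_eq]
  have hspan : ⊤ ≤ S := by
    rw [← hC.sup_eq_top, ← hK]
    exact sup_le (sup_le hRS hDS) hCS
  have hdisj : R ⊓ D = ⊥ := eq_bot_iff.2 fun v hv => hD.inf_eq_bot ▸ ⟨hv.1, hv.2.2⟩
  have h1 := Submodule.finrank_add_eq_of_isCompl hC
  have h2 := LinearMap.finrank_range_add_finrank_ker N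
  have h3 := Submodule.finrank_sup_add_finrank_inf_eq R D
  rw [hK, hdisj, finrank_bot, add_zero] at h3
  let b := basisOfTopLeSpanOfCardEqFinrank fam hspan (by
    simp only [Fintype.card_sum, Fintype.card_fin]
    change finrank F R + finrank F K = finrank F V at h2
    omega)
  have hb : ∀ i, b i = fam i := fun i => by simp [b]
  refine ⟨_, _, b, fun k => ?_, fun k => ?_, fun j => ?_⟩
  · rw [hb, hb]; rfl
  · rw [hb]; exact hN _
  · rw [hb]; exact (bD j).2.1

include hF hf in
/-- Involutions in characteristic two. -/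
theorem goodU_char_two (h2 : (2 : F) = 0) (hn : 0 < n) (x : GL (Fin n) F) {w : F} (hw : w ≠ 0)
    (hx : op x ^ 2 = (w * w) • 1) : GoodU f x := by
  classical
  set N : End F (Fin n → F) := w⁻¹ • op x - 1 with hNdef
  have hT : ∀ v, op x v = w • v + w • N v := fun v => by
    rw [hNdef, LinearMap.sub_apply, LinearMap.smul_apply, Module.End.one_apply, smul_sub, smul_smul,
      mul_inv_cancel₀ hw, one_smul, add_sub_cancel]
  have hN : ∀ v, N (N v) = 0 := fun v => by
    have h1 := LinearMap.congr_fun hx v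
    rw [sq, Module.End.mul_apply, LinearMap.smul_apply, Module.End.one_apply, hT (op x v), hT v, map_add,
      map_smul, map_smul] at h1
    have h4 : (w * w) • N (N v) = 0 := by
      have h5 : w • (w • v + w • N v) + w • (w • N v + w • N (N v)) =
          (w * w) • v + (2 : F) • (w * w) • N v + (w * w) • N (N v) := by
        module
      rw [h5, h2, zero_smul, add_zero] at h1
      exact left_eq_add.1 h1.symm
    exact (smul_eq_zero.1 h4).resolve_left (mul_ne_zero hw hw)
  obtain ⟨m, l, b, hb0, hb1, hb2⟩ := exists_sq_zero_basis N hN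
  let π : (Fin m ⊕ Fin m) ⊕ Fin l → (Fin m ⊕ Fin m) ⊕ Fin l := Sum.map Sum.swap id
  have hπ : ∀ i, π (π i) = i := by rintro ((k | k) | j) <;> rfl
  have htwo : ∀ a : F, a + a = 0 := fun a => by linear_combination a * h2
  refine goodU_of_gram hF hf x b hπ (mul_ne_zero (pow_ne_zero q₀ hw) hw) (fun i j => ?_) fun t _ => ?_
  · rw [← H3.conjQ_apply hF]
    rcases i with (i | i) | i <;> rcases j with (j | j) | j <;>
      simp only [hT, hb0, hb1, hb2, smul_zero, add_zero, map_add, map_smul, LinearMap.map_smulₛₗ,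
        LinearMap.add_apply, LinearMap.smul_apply, gram_basis, smul_eq_mul, π, Sum.map_inl, Sum.map_inr,
        Sum.swap_inl, Sum.swap_inr, Sum.inl.injEq, Sum.inr.injEq, reduceCtorEq, if_false, id_eq,
        mul_zero, zero_add, RingHom.id_apply] <;>
      first
        | ring1
        | (split_ifs <;> first | ring1 | linear_combination (H3.conjQ hF w * w) * htwo 1)
  · -- determinants of the centraliser
    obtain ⟨μ, hμ, hdμ⟩ : ∃ μ : (Fin m ⊕ Fin m) ⊕ Fin l → F,
        (∀ k, μ (.inl (.inl k)) = μ (.inl (.inr k))) ∧ ∏ i, μ i = t := by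
      rcases Nat.eq_zero_or_pos l with hl | hl
      · subst hl
        obtain ⟨s, hs⟩ : ∃ s, t = s * s := FiniteField.isSquare_of_char_two (by
          obtain ⟨p, hp⟩ := CharP.exists F
          rw [ringChar.eq F p]
          have := Fact.mk (CharP.char_is_prime F p)
          exact (Nat.prime_dvd_prime_iff_eq Fact.out Nat.prime_two).1
            ((CharP.cast_eq_zero_iff F p 2).1 (by exact_mod_cast h2))) t
        have hm : 0 < m := by
          have := Module.finrank_eq_card_basis b
          simp at this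
          omega
        refine ⟨Sum.elim (Sum.elim (fun k => if k = ⟨0, hm⟩ then s else 1)
          fun k => if k = ⟨0, hm⟩ then s else 1) fun _ => 1, fun k => rfl, ?_⟩
        simp [Fintype.prod_sum_type, Fintype.prod_ite_eq', hs]
      · refine ⟨Sum.elim (fun _ => 1) fun j => if j = ⟨0, hl⟩ then t else 1, fun k => rfl, ?_⟩
        simp [Fintype.prod_sum_type, Fintype.prod_ite_eq']
    refine ⟨b.constr F fun i => μ i • b i, b.ext fun i => ?_, ?_⟩
    · have hZ : ∀ i, b.constr F (fun i => μ i • b i) (b i) = μ i • b i := fun i => b.constr_basis F _ i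
      have hTb : ∀ k, op x (b (.inl (.inl k))) = w • b (.inl (.inl k)) + w • b (.inl (.inr k)) :=
        fun k => by rw [hT, hb0]
      rw [Module.End.mul_apply, Module.End.mul_apply, hZ, map_smul]
      rcases i with (k | k) | j
      · rw [hTb, map_add, map_smul, map_smul, hZ, hZ, ← hμ k]; module
      · rw [hT, hb1, smul_zero, add_zero, map_smul, hZ, smul_comm]
      · rw [hT, hb2, smul_zero, add_zero, map_smul, hZ, smul_comm]
    · rw [← LinearMap.det_toMatrix b, show LinearMap.toMatrix b b (b.constr F fun i => μ i • b i) =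
        Matrix.diagonal μ from ?_, Matrix.det_diagonal, hdμ]
      ext i j
      rw [LinearMap.toMatrix_apply, b.constr_basis]
      by_cases hij : i = j
      · subst hij; simp
      · simp [Matrix.diagonal_apply_ne _ hij, hij]

include hF hf in
/-- An element with non-square scalar square preserves no Hermitian form up to scalars. -/
theorem not_goodU_nonsquare (h2 : (2 : F) ≠ 0) (hn : 0 < n) (x : GL (Fin n) F) {z : F} (hz0 : z ≠ 0)
    (hz : ¬ IsSquare z) (hx : op x ^ 2 = z • 1) : ¬ GoodU f x := by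
  intro hg
  obtain ⟨B, c, hB, hc, hcq, hBx⟩ := herm_of_goodU hF hf x hg hn
  obtain ⟨b, hb⟩ := hB.exists_orth_basis (Module.finrank_fin_fun F)
  have h := scale_pow hBx 2 (b ⟨0, hn⟩) (b ⟨0, hn⟩)
  rw [hx, LinearMap.smul_apply, Module.End.one_apply, map_smul, LinearMap.map_smulₛₗ, LinearMap.smul_apply,
    smul_eq_mul, smul_eq_mul, hb, if_pos rfl, mul_one, mul_one, H3.conjQ_apply] at h
  have hF2 : ringChar F ≠ 2 := fun h => h2 (by
    haveI := ringChar.of_eq h
    exact_mod_cast CharP.cast_eq_zero F 2)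
  obtain ⟨j, hj⟩ : Odd q₀ := by
    have h1 := FiniteField.odd_card_of_char_ne_two hF2
    rw [hF] at h1
    exact (Nat.odd_pow_iff two_ne_zero).1 (Nat.odd_iff.2 h1)
  refine hz ((FiniteField.isSquare_iff hF2 hz0).2 ?_)
  have hc1 : c ^ (2 * j) = 1 := by
    have h3 := hcq
    rw [hj, pow_succ] at h3
    exact mul_right_cancel₀ hc (by rw [one_mul]; exact h3)
  rw [show Fintype.card F / 2 = (q₀ + 1) * j by
    rw [hF, hj, show (2 * j + 1) ^ 2 = 2 * ((2 * j + 1 + 1) * j) + 1 by ring]; omega,
    pow_mul, pow_succ, mul_comm, h, ← pow_mul, hc1]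

omit [Fintype F] in
/-- The largest power of two dividing `q - 1` divides the order of a non-square. -/
theorem two_pow_dvd_orderOf [Fintype F] (h2 : (2 : F) ≠ 0) {y : F} (hy0 : y ≠ 0) (hy : ¬ IsSquare y) :
    2 ^ padicValNat 2 (Fintype.card F - 1) ∣ orderOf y := by
  have hF2 : ringChar F ≠ 2 := fun h => h2 (by
    haveI := ringChar.of_eq h
    exact_mod_cast CharP.cast_eq_zero F 2)
  have hq := Fintype.one_lt_card (α := F)
  obtain ⟨k, m, hm, hk⟩ := Nat.exists_eq_two_pow_mul_odd (show Fintype.card F - 1 ≠ 0 by omega)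
  have hk1 : k ≠ 0 := fun h => by
    have h1 := FiniteField.odd_card_of_char_ne_two hF2
    rw [h, pow_zero, one_mul] at hk
    obtain ⟨i, rfl⟩ := hm
    omega
  rw [hk, padicValNat.mul (pow_ne_zero _ two_ne_zero) hm.pos.ne', padicValNat.prime_pow,
    padicValNat.eq_zero_of_not_dvd hm.not_two_dvd_nat, add_zero]
  obtain ⟨i, hi⟩ := orderOf_dvd_of_pow_eq_one (FiniteField.pow_card_sub_one_eq_one y hy0)
  rw [hk] at hi
  by_contra hd
  have hi2 : 2 ∣ i := by
    by_contra h
    have hc : Nat.Coprime (2 ^ k) i :=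
      Nat.Coprime.pow_left k (Nat.prime_two.coprime_iff_not_dvd.2 h)
    exact hd (hc.dvd_of_dvd_mul_right ⟨m, hi.symm⟩)
  obtain ⟨i, rfl⟩ := hi2
  refine hy ((FiniteField.isSquare_iff hF2 hy0).2 ?_)
  rw [show Fintype.card F / 2 = orderOf y * i by
    rw [show Fintype.card F = 2 * (orderOf y * i) + 1 by rw [mul_left_comm, ← hi, ← hk]; omega]
    omega, pow_mul, pow_orderOf_eq_one, one_pow]

include hF hf in
/-- All elements with scalar square are good exactly when no non-square occurs. -/
theorem all_goodU_two_iff (hn : 0 < n) {p : ℕ} [Fact p.Prime] [CharP F p] :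
    (∀ x ∈ Cfsg.Geo.specialLinear (Fin n) F, (∃ z : F, op x ^ 2 = z • 1) → (∀ z : F, op x ≠ z • 1) →
      GoodU f x) ↔ (p = 2 ∨ padicValNat 2 n ≤ padicValNat 2 (Fintype.card F - 1)) := by
  have hp2 : (2 : F) = 0 ↔ p = 2 := by
    rw [show (2 : F) = ((2 : ℕ) : F) by norm_num, CharP.cast_eq_zero_iff F p]
    exact Nat.prime_dvd_prime_iff_eq Fact.out Nat.prime_two
  haveI : Nonempty (Fin n) := ⟨⟨0, hn⟩⟩
  haveI : Fact (Nat.Prime 2) := ⟨Nat.prime_two⟩
  constructor
  · intro H
    by_contra hno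
    push Not at hno
    obtain ⟨hpne, hv⟩ := hno
    have h2 : (2 : F) ≠ 0 := fun h => hpne (hp2.1 h)
    set k := padicValNat 2 (Fintype.card F - 1) with hk
    obtain ⟨y, hy⟩ := exists_primitive (F := F) (k := 2 ^ k) (by
      rw [Nat.card_eq_fintype_card, hk]; exact pow_padicValNat_dvd)
    have hq := Fintype.one_lt_card (α := F)
    have hy0 : y ≠ 0 := hy.ne_zero (pow_ne_zero _ two_ne_zero)
    have hysq : ¬ IsSquare y := by
      rintro ⟨s, rfl⟩
      have hs : s ≠ 0 := fun h => hy0 (by rw [h, mul_zero])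
      have h1 : orderOf s ∣ Fintype.card F - 1 :=
        orderOf_dvd_of_pow_eq_one (FiniteField.pow_card_sub_one_eq_one s hs)
      have hF2 : ringChar F ≠ 2 := fun h => hpne (by rw [← ringChar.eq F p, h])
      obtain ⟨j, hj⟩ : ∃ j, Fintype.card F - 1 = 2 * j := by
        have h3 := FiniteField.odd_card_of_char_ne_two hF2
        exact ⟨Fintype.card F / 2, by omega⟩
      have h5 : 2 ^ k ∣ j := by
        refine hy.dvd_of_pow_eq_one j ?_
        rw [← sq, ← pow_mul, ← hj, FiniteField.pow_card_sub_one_eq_one s hs]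
      have h6 : 2 ^ (k + 1) ∣ Fintype.card F - 1 := by
        rw [hj, pow_succ']; exact mul_dvd_mul_left 2 h5
      exact Nat.not_succ_le_self k
        (by rw [padicValNat_dvd_iff_le (show Fintype.card F - 1 ≠ 0 by omega), ← hk] at h6; exact h6)
    have hdvd : 2 * 2 ^ k ∣ n := by
      rw [← pow_succ', padicValNat_dvd_iff_le hn.ne']; exact hv
    obtain ⟨l, hl⟩ := (dvd_mul_right 2 (2 ^ k)).trans hdvd
    have hkl : 2 ^ k ∣ l := (mul_dvd_mul_iff_left two_ne_zero).1 (hl ▸ hdvd)
    obtain ⟨T, hT, hTb⟩ := H97.exists_twisted (r := 2) (-y) (l := l)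
      ((Pi.basisFun F (Fin n)).reindex ((finCongr (by rw [hl, mul_comm])).trans finProdFinEquiv.symm))
    have hdet : LinearMap.det T = 1 := by
      rw [H97.det_twistStd _ T hTb]
      rw [show ((-1 : F) ^ (2 - 1) * -y) = y by ring]
      exact hy.pow_eq_one_iff_dvd l |>.2 hkl
    obtain ⟨x, hx⟩ := exists_gl_of_op T (by rw [hdet]; exact one_ne_zero)
    have hns : ¬ IsSquare (-y) := by
      intro h
      have hm1 : IsSquare (-1 : F) := by
        rw [FiniteField.isSquare_neg_one_iff, hF]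
        have := Nat.pow_mod q₀ 2 4
        have h4 := Nat.mod_lt q₀ (show 4 > 0 by omega)
        interval_cases q₀ % 4 <;> omega
      exact hysq (by simpa using hm1.mul h)
    have hnsc : ∀ z : F, op x ≠ z • 1 := by
      intro z hz
      refine hns ⟨z, ?_⟩
      rw [hx] at hz
      rw [hz, smul_pow, one_pow] at hT
      have h1 := congrFun (LinearMap.congr_fun hT fun _ => 1) ⟨0, hn⟩
      simp at h1
      rw [← h1, sq]
    exact not_goodU_nonsquare hF hf h2 hn x (neg_ne_zero.2 hy0) hns (by rw [hx, hT])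
      (H x (mem_special_iff.2 (by rw [hx, hdet])) ⟨-y, by rw [hx, hT]⟩ hnsc)
  · intro H x hxS ⟨z, hz⟩ _
    have hdet := mem_special_iff.1 hxS
    have hz0 : z ≠ 0 := by
      rintro rfl
      have h1 := congrArg LinearMap.det hz
      rw [map_pow, hdet, one_pow, zero_smul, LinearMap.det_zero' (Pi.basisFun F (Fin n))] at h1
      exact one_ne_zero h1
    by_cases hsq : IsSquare z
    · obtain ⟨w, rfl⟩ := hsq
      have hw : w ≠ 0 := fun h => hz0 (by rw [h, mul_zero])
      by_cases h2 : (2 : F) = 0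
      · exact goodU_char_two hF hf h2 hn x hw hz
      · exact goodU_sq_square hF hf h2 hn x hw hz
    exfalso
    have h2 : (2 : F) ≠ 0 := fun h => hsq (FiniteField.isSquare_of_char_two
      (by rw [ringChar.eq F p, hp2.1 h]) z)
    have hv := H.resolve_left (fun h => h2 (hp2.2 h))
    obtain ⟨l, hl, hd⟩ := H97.twisted_det (r := 2) hz0 (fun w hw => hsq ⟨w, by rw [← hw, sq]⟩) (op x) hz
    rw [Module.finrank_fin_fun] at hl
    rw [hdet, pow_one, neg_one_mul] at hd
    have hns : ¬ IsSquare (-z) := by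
      intro h
      have hm1 : IsSquare (-1 : F) := by
        rw [FiniteField.isSquare_neg_one_iff, hF]
        have := Nat.pow_mod q₀ 2 4
        have h4 := Nat.mod_lt q₀ (show 4 > 0 by omega)
        interval_cases q₀ % 4 <;> omega
      exact hsq (by simpa using hm1.mul h)
    have h1 := (two_pow_dvd_orderOf h2 (neg_ne_zero.2 hz0) hns).trans (orderOf_dvd_of_pow_eq_one hd.symm)
    have h3 := mul_dvd_mul_left 2 h1
    rw [← pow_succ', mul_comm 2 l, ← hl, padicValNat_dvd_iff_le hn.ne'] at h3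
    omega

end Cfsg.Agent.H98.FP
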